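import Mathlib
import Cfsg.Agent.H887.SiegelMethod
set_option linter.all false

-- part: H887/TenSp/Basic
section
/-!
Tensor products of two symplectic spaces, coordinate free.

* `kU f u : U ⊗ W → W`, `kW g w : U ⊗ W → U`: contraction with a vector;
* `E1 f x y z = f y z • x`, a rank one operator;
* `In M n`: the subgroup `M` of `V ≃ₗ[F] V` contains the map `1 + n`;
* `Alt f`: `f` alternating and nondegenerate; `exists_dual`, `exists_sep`.
-/

set_option autoImplicit false

namespace Cfsg.Agent.H887.TenSp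

open TensorProduct

variable {F U W V : Type*} [Field F] [AddCommGroup U] [Module F U] [AddCommGroup W] [Module F W]
  [AddCommGroup V] [Module F V]

/-! ### Alternating forms -/

/-- `f` is alternating and nondegenerate. -/
structure Alt (f : LinearMap.BilinForm F U) : Prop where
  alt : ∀ x, f x x = 0
  nd : ∀ x, (∀ y, f x y = 0) → x = 0

variable {f : LinearMap.BilinForm F U} {g : LinearMap.BilinForm F W}

theorem Alt.neg (h : Alt f) (x y : U) : f x y = - f y x := by
  have h1 := h.alt (x + y)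
  simp only [map_add, LinearMap.add_apply, h.alt, zero_add, add_zero] at h1
  exact eq_neg_of_add_eq_zero_right h1

theorem Alt.comm_zero (h : Alt f) {x y : U} (hxy : f x y = 0) : f y x = 0 := by
  rw [h.neg, hxy, neg_zero]

theorem Alt.nd' (h : Alt f) (x : U) (hx : ∀ y, f y x = 0) : x = 0 :=
  h.nd x fun y => h.comm_zero (hx y)

theorem Alt.exists_ne (h : Alt f) {x : U} (hx : x ≠ 0) : ∃ y, f x y = 1 := by
  by_contra hcon
  push Not at hcon
  apply hx
  apply h.nd
  intro y
  by_contra hy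
  apply hcon ((f x y)⁻¹ • y)
  rw [map_smul, smul_eq_mul, inv_mul_cancel₀ hy]

theorem Alt.exists_ne' (h : Alt f) {x : U} (hx : x ≠ 0) : ∃ y, f y x = 1 := by
  obtain ⟨y, hy⟩ := h.exists_ne hx
  exact ⟨-y, by rw [h.neg, map_neg, neg_neg, hy]⟩

/-- Every functional is of the form `f u`. -/
theorem Alt.exists_dual [FiniteDimensional F U] (h : Alt f) (φ : Module.Dual F U) :
    ∃ u, ∀ z, f u z = φ z := by
  have hinj : Function.Injective f := by
    rw [← LinearMap.ker_eq_bot, LinearMap.ker_eq_bot']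
    intro x hx
    exact h.nd x fun y => by rw [hx]; rfl
  have hsurj : Function.Surjective f := by
    have := LinearMap.injective_iff_surjective_of_finrank_eq_finrank (f := f)
      (Subspace.dual_finrank_eq (K := F) (V := U)).symm
    exact this.1 hinj
  obtain ⟨u, hu⟩ := hsurj φ
  exact ⟨u, fun z => by rw [hu]⟩

/-- Separation of a vector from a subspace. -/
theorem Alt.exists_sep [FiniteDimensional F U] (h : Alt f) (p : Submodule F U) {x : U}
    (hx : x ∉ p) : ∃ u, f u x = 1 ∧ ∀ z ∈ p, f u z = 0 := by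
  obtain ⟨φ, hφ, hp⟩ := Submodule.exists_le_ker_of_notMem hx
  obtain ⟨u, hu⟩ := h.exists_dual ((φ x)⁻¹ • φ)
  refine ⟨u, ?_, fun z hz => ?_⟩
  · rw [hu, LinearMap.smul_apply, smul_eq_mul, inv_mul_cancel₀ hφ]
  · rw [hu, LinearMap.smul_apply, LinearMap.mem_ker.1 (hp hz), smul_zero]

theorem Alt.exists_sep' [FiniteDimensional F U] (h : Alt f) (p : Submodule F U) {x : U}
    (hx : x ∉ p) : ∃ u, f x u = 1 ∧ ∀ z ∈ p, f z u = 0 := by
  obtain ⟨u, hu, hp⟩ := h.exists_sep p hx
  refine ⟨-u, ?_, fun z hz => ?_⟩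
  · rw [map_neg, ← h.neg, hu]
  · rw [map_neg, ← h.neg, hp z hz]

/-- Separation from one vector. -/
theorem Alt.sep1 [FiniteDimensional F U] (h : Alt f) {x a : U} (hx : x ∉ Submodule.span F {a}) :
    ∃ u, f u x = 1 ∧ f u a = 0 := by
  obtain ⟨u, hu, hp⟩ := h.exists_sep _ hx
  exact ⟨u, hu, hp a (Submodule.mem_span_singleton_self a)⟩

/-- Separation from two vectors. -/
theorem Alt.sep2 [FiniteDimensional F U] (h : Alt f) {x a b : U}
    (hx : x ∉ Submodule.span F {a, b}) : ∃ u, f u x = 1 ∧ f u a = 0 ∧ f u b = 0 := by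
  obtain ⟨u, hu, hp⟩ := h.exists_sep _ hx
  exact ⟨u, hu, hp a (Submodule.subset_span (by simp)), hp b (Submodule.subset_span (by simp))⟩

/-- Separation from three vectors. -/
theorem Alt.sep3 [FiniteDimensional F U] (h : Alt f) {x a b c : U}
    (hx : x ∉ Submodule.span F {a, b, c}) :
    ∃ u, f u x = 1 ∧ f u a = 0 ∧ f u b = 0 ∧ f u c = 0 := by
  obtain ⟨u, hu, hp⟩ := h.exists_sep _ hx
  exact ⟨u, hu, hp a (Submodule.subset_span (by simp)), hp b (Submodule.subset_span (by simp)),
    hp c (Submodule.subset_span (by simp))⟩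

/-- A nonzero vector orthogonal to everything in a proper subspace. -/
theorem Alt.exists_perp [FiniteDimensional F U] (h : Alt f) {p : Submodule F U} (hp : p ≠ ⊤) :
    ∃ u, u ≠ 0 ∧ ∀ z ∈ p, f u z = 0 := by
  obtain ⟨x, hx⟩ : ∃ x, x ∉ p := by
    by_contra hcon
    push Not at hcon
    exact hp (Submodule.eq_top_iff'.2 hcon)
  obtain ⟨u, hu, hu'⟩ := h.exists_sep p hx
  refine ⟨u, ?_, hu'⟩
  rintro rfl
  simp at hu

theorem finrank_span_pair_le (a b : U) : Module.finrank F (Submodule.span F {a, b}) ≤ 2 := by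
  classical
  have h := finrank_span_finset_le_card (R := F) ({a, b} : Finset U)
  have e : ((({a, b} : Finset U)) : Set U) = {a, b} := by simp
  rw [Set.finrank, e] at h
  exact h.trans Finset.card_le_two

theorem finrank_span_triple_le (a b c : U) :
    Module.finrank F (Submodule.span F {a, b, c}) ≤ 3 := by
  classical
  have h := finrank_span_finset_le_card (R := F) ({a, b, c} : Finset U)
  have e : ((({a, b, c} : Finset U)) : Set U) = {a, b, c} := by simp
  rw [Set.finrank, e] at h
  exact h.trans Finset.card_le_three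

/-- The orthogonal complement of a subspace. -/
def perp (f : LinearMap.BilinForm F U) (p : Submodule F U) : Submodule F U where
  carrier := {x | ∀ z ∈ p, f z x = 0}
  zero_mem' := fun z _ => map_zero _
  add_mem' := by
    intro x y hx hy z hz
    rw [map_add, hx z hz, hy z hz, add_zero]
  smul_mem' := by
    intro c x hx z hz
    rw [map_smul, hx z hz, smul_zero]

theorem mem_perp {p : Submodule F U} {x : U} : x ∈ perp f p ↔ ∀ z ∈ p, f z x = 0 := Iff.rfl

theorem Alt.mem_perp' (h : Alt f) {p : Submodule F U} {x : U} :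
    x ∈ perp f p ↔ ∀ z ∈ p, f x z = 0 :=
  ⟨fun hx z hz => h.comm_zero (hx z hz), fun hx z hz => h.comm_zero (hx z hz)⟩

/-- `finrank (perp p) + finrank p = finrank U`. -/
theorem Alt.finrank_perp [FiniteDimensional F U] (h : Alt f) (p : Submodule F U) :
    Module.finrank F (perp f p) + Module.finrank F p = Module.finrank F U := by
  -- the map `U → Dual p`
  let φ : U →ₗ[F] Module.Dual F p := (Submodule.subtype p).dualMap ∘ₗ f
  have hφ : ∀ x (z : p), φ x z = f x z := fun _ _ => rfl
  have hker : LinearMap.ker φ = perp f p := by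
    ext x
    rw [LinearMap.mem_ker, h.mem_perp']
    constructor
    · intro hx z hz
      have := LinearMap.congr_fun hx ⟨z, hz⟩
      exact this
    · intro hx
      ext z
      exact hx z z.2
  have hsurj : LinearMap.range φ = ⊤ := by
    rw [LinearMap.range_eq_top]
    intro ψ
    obtain ⟨ψ', hψ'⟩ := LinearMap.exists_extend ψ
    obtain ⟨u, hu⟩ := h.exists_dual ψ'
    refine ⟨u, ?_⟩
    ext z
    rw [hφ, hu, ← hψ']
    rfl
  have h1 := LinearMap.finrank_range_add_finrank_ker φ
  rw [hker, hsurj, finrank_top, Subspace.dual_finrank_eq] at h1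
  omega

theorem Alt.perp_perp [FiniteDimensional F U] (h : Alt f) (p : Submodule F U) :
    perp f (perp f p) = p := by
  symm
  apply Submodule.eq_of_le_of_finrank_eq
  · intro x hx z hz
    exact h.comm_zero (hz x hx)
  · have h1 := h.finrank_perp p
    have h2 := h.finrank_perp (perp f p)
    omega

/-! ### Rank one operators -/

/-- The operator `z ↦ f y z • x`. -/
def E1 (f : LinearMap.BilinForm F U) (x y : U) : U →ₗ[F] U := (f y).smulRight x

@[simp] theorem E1_apply (x y z : U) : E1 f x y z = f y z • x := rfl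

theorem E1_add_left (x x' y : U) : E1 f (x + x') y = E1 f x y + E1 f x' y := by
  ext z; simp

theorem E1_add_right (x y y' : U) : E1 f x (y + y') = E1 f x y + E1 f x y' := by
  ext z; simp [add_smul]

theorem E1_smul_left (c : F) (x y : U) : E1 f (c • x) y = c • E1 f x y := by
  ext z; simp [smul_smul, mul_comm]

theorem E1_smul_right (c : F) (x y : U) : E1 f x (c • y) = c • E1 f x y := by
  ext z; simp [smul_smul]

theorem E1_mul (x y x' y' : U) : E1 f x y * E1 f x' y' = f y x' • E1 f x y' := by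
  ext z
  simp [smul_smul, mul_comm]

/-! ### Contractions -/

/-- Contraction with `u` in the first factor. -/
def kU (f : LinearMap.BilinForm F U) (W : Type*) [AddCommGroup W] [Module F W] (u : U) :
    U ⊗[F] W →ₗ[F] W :=
  (TensorProduct.lid F W).toLinearMap ∘ₗ LinearMap.rTensor W (f u)

@[simp] theorem kU_tmul (u z : U) (t : W) : kU f W u (z ⊗ₜ t) = f u z • t := by
  simp [kU]

/-- Contraction with `w` in the second factor. -/
def kW (U : Type*) [AddCommGroup U] [Module F U] (g : LinearMap.BilinForm F W) (w : W) :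
    U ⊗[F] W →ₗ[F] U :=
  (TensorProduct.rid F U).toLinearMap ∘ₗ LinearMap.lTensor U (g w)

@[simp] theorem kW_tmul (w : W) (z : U) (t : W) : kW U g w (z ⊗ₜ t) = g w t • z := by
  simp [kW]

theorem kU_add (u u' : U) (v : U ⊗[F] W) : kU f W (u + u') v = kU f W u v + kU f W u' v := by
  induction v with
  | zero => simp
  | tmul x y => simp [add_smul]
  | add x y hx hy => rw [map_add, hx, hy, map_add, map_add]; abel

theorem kU_smul (c : F) (u : U) (v : U ⊗[F] W) : kU f W (c • u) v = c • kU f W u v := by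
  induction v with
  | zero => simp
  | tmul x y => simp [smul_smul]
  | add x y hx hy => rw [map_add, hx, hy, map_add, smul_add]

theorem kW_add (w w' : W) (v : U ⊗[F] W) : kW U g (w + w') v = kW U g w v + kW U g w' v := by
  induction v with
  | zero => simp
  | tmul x y => simp [add_smul]
  | add x y hx hy => rw [map_add, hx, hy, map_add, map_add]; abel

theorem kW_smul (c : F) (w : W) (v : U ⊗[F] W) : kW U g (c • w) v = c • kW U g w v := by
  induction v with
  | zero => simp
  | tmul x y => simp [smul_smul]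
  | add x y hx hy => rw [map_add, hx, hy, map_add, smul_add]

/-- `w ↦ kW w v` as a linear map. -/
def kWlin (U : Type*) [AddCommGroup U] [Module F U] (g : LinearMap.BilinForm F W)
    (v : U ⊗[F] W) : W →ₗ[F] U where
  toFun := fun w => kW U g w v
  map_add' := fun w w' => kW_add w w' v
  map_smul' := fun c w => kW_smul c w v

/-- `u ↦ kU u v` as a linear map. -/
def kUlin (f : LinearMap.BilinForm F U) (v : U ⊗[F] W) : U →ₗ[F] W where
  toFun := fun u => kU f W u v
  map_add' := fun u u' => kU_add u u' v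
  map_smul' := fun c u => kU_smul c u v

theorem Alt.tmul_eq_zero (hf : Alt f) {x : U} {y : W} (hx : x ≠ 0) (h : x ⊗ₜ[F] y = 0) :
    y = 0 := by
  obtain ⟨u, hu⟩ := hf.exists_ne' hx
  have := congrArg (kU f W u) h
  rwa [kU_tmul, hu, one_smul, map_zero] at this

theorem Alt.tmul_eq_zero' (hg : Alt g) {x : U} {y : W} (hy : y ≠ 0) (h : x ⊗ₜ[F] y = 0) :
    x = 0 := by
  obtain ⟨u, hu⟩ := hg.exists_ne' hy
  have := congrArg (kW U g u) h
  rwa [kW_tmul, hu, one_smul, map_zero] at this

theorem Alt.tmul_ne_zero (hf : Alt f) {x : U} {y : W} (hx : x ≠ 0) (hy : y ≠ 0) :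
    x ⊗ₜ[F] y ≠ 0 := fun h => hy (hf.tmul_eq_zero hx h)

theorem Alt.tmul_right_inj (hf : Alt f) {x : U} {y y' : W} (hx : x ≠ 0)
    (h : x ⊗ₜ[F] y = x ⊗ₜ[F] y') : y = y' := by
  rw [← sub_eq_zero, ← TensorProduct.tmul_sub] at h
  exact sub_eq_zero.1 (hf.tmul_eq_zero hx h)

theorem Alt.tmul_left_inj (hg : Alt g) {x x' : U} {y : W} (hy : y ≠ 0)
    (h : x ⊗ₜ[F] y = x' ⊗ₜ[F] y) : x = x' := by
  rw [← sub_eq_zero, ← TensorProduct.sub_tmul] at h
  exact sub_eq_zero.1 (hg.tmul_eq_zero' hy h)

/-- All contractions zero: the vector is zero. -/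
theorem eq_zero_of_kW [FiniteDimensional F U] (hg : Alt g) {v : U ⊗[F] W}
    (h : ∀ w, kW U g w v = 0) : v = 0 := by
  let b := Module.finBasis F U
  obtain ⟨c, hc⟩ := TensorProduct.eq_repr_basis_left b v
  have h1 : ∀ w, ∀ i, g w (c i) = 0 := by
    intro w i
    have h2 := h w
    rw [← hc, map_finsuppSum] at h2
    have h3 : (c.sum fun i y => kW U g w (b i ⊗ₜ y)) = ∑ i, g w (c i) • b i := by
      rw [Finsupp.sum_fintype _ _ (by simp)]
      simp
    rw [h3] at h2
    exact Fintype.linearIndependent_iff.1 b.linearIndependent _ h2 i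
  have h2 : c = 0 := by
    ext i
    exact hg.nd' _ fun w => h1 w i
  rw [← hc, h2]
  simp

/-- The subspace `U ⊗ p`. -/
def UL (U : Type*) [AddCommGroup U] [Module F U] (p : Submodule F W) : Submodule F (U ⊗[F] W) :=
  Submodule.span F {v | ∃ (z : U) (t : W), t ∈ p ∧ v = z ⊗ₜ t}

theorem tmul_mem_UL {p : Submodule F W} (z : U) {t : W} (ht : t ∈ p) : z ⊗ₜ[F] t ∈ UL U p :=
  Submodule.subset_span ⟨z, t, ht, rfl⟩

theorem mem_UL_iff [FiniteDimensional F U] [FiniteDimensional F W] (hg : Alt g)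
    {p : Submodule F W} {v : U ⊗[F] W} :
    v ∈ UL U p ↔ ∀ w ∈ perp g p, kW U g w v = 0 := by
  constructor
  · intro hv w hw
    have h1 : UL U p ≤ LinearMap.ker (kW U g w) := by
      refine Submodule.span_le.2 ?_
      rintro _ ⟨z, t, ht, rfl⟩
      show kW U g w _ = 0
      rw [kW_tmul, hg.comm_zero (hw t ht), zero_smul]
    exact h1 hv
  · intro h
    let b := Module.finBasis F U
    obtain ⟨c, hc⟩ := TensorProduct.eq_repr_basis_left b v
    have h1 : ∀ w ∈ perp g p, ∀ i, g w (c i) = 0 := by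
      intro w hw i
      have h2 := h w hw
      rw [← hc, map_finsuppSum] at h2
      have h3 : (c.sum fun i y => kW U g w (b i ⊗ₜ y)) = ∑ i, g w (c i) • b i := by
        rw [Finsupp.sum_fintype _ _ (by simp)]
        simp
      rw [h3] at h2
      exact Fintype.linearIndependent_iff.1 b.linearIndependent _ h2 i
    have h2 : ∀ i, c i ∈ p := by
      intro i
      rw [← hg.perp_perp p]
      exact fun w hw => h1 w hw i
    rw [← hc]
    refine Submodule.sum_mem _ fun i _ => tmul_mem_UL _ (h2 i)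

/-- Contractions with `u ∈ v^⊥` all zero: the vector is in `v ⊗ W`. -/
theorem exists_tmul_of_kU [FiniteDimensional F U] [FiniteDimensional F W] (hf : Alt f)
    {z : U} {v : U ⊗[F] W} (h : ∀ u, f u z = 0 → kU f W u v = 0) : ∃ t : W, v = z ⊗ₜ t := by
  by_cases hz : z = 0
  · subst hz
    refine ⟨0, ?_⟩
    rw [TensorProduct.tmul_zero]
    let b := Module.finBasis F W
    obtain ⟨c, hc⟩ := TensorProduct.eq_repr_basis_right b v
    have h1 : ∀ u, ∀ i, f u (c i) = 0 := by
      intro u i
      have h2 := h u (map_zero _)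
      rw [← hc, map_finsuppSum] at h2
      have h3 : (c.sum fun i y => kU f W u (y ⊗ₜ b i)) = ∑ i, f u (c i) • b i := by
        rw [Finsupp.sum_fintype _ _ (by simp)]
        simp
      rw [h3] at h2
      exact Fintype.linearIndependent_iff.1 b.linearIndependent _ h2 i
    have h2 : c = 0 := by
      ext i
      exact hf.nd' _ fun w => h1 w i
    rw [← hc, h2]
    simp
  · let b := Module.finBasis F W
    obtain ⟨c, hc⟩ := TensorProduct.eq_repr_basis_right b v
    have h1 : ∀ u, f u z = 0 → ∀ i, f u (c i) = 0 := by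
      intro u hu i
      have h2 := h u hu
      rw [← hc, map_finsuppSum] at h2
      have h3 : (c.sum fun i y => kU f W u (y ⊗ₜ b i)) = ∑ i, f u (c i) • b i := by
        rw [Finsupp.sum_fintype _ _ (by simp)]
        simp
      rw [h3] at h2
      exact Fintype.linearIndependent_iff.1 b.linearIndependent _ h2 i
    have h2 : ∀ i, ∃ a : F, a • z = c i := by
      intro i
      by_contra hcon
      obtain ⟨u, hu, hu'⟩ := hf.sep1 (x := c i) (a := z)
        (fun hmem => hcon (Submodule.mem_span_singleton.1 hmem))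
      rw [h1 u hu' i] at hu
      exact zero_ne_one hu
    choose a ha using h2
    refine ⟨∑ i, a i • b i, ?_⟩
    rw [← hc, Finsupp.sum_fintype _ _ (by simp), TensorProduct.tmul_sum]
    refine Finset.sum_congr rfl fun i _ => ?_
    rw [← ha, TensorProduct.smul_tmul]

end Cfsg.Agent.H887.TenSp
end

-- part: H887/TenSp/Ops
section
/-!
Operators on `U ⊗ W`: `In M n` (`1 + n ∈ M`), commutators, root elements, the standing hypothesis
`Hy f g Q M` : `Q` is the quadratic form on `U ⊗ W` with polar form `f ⊗ g` vanishing on pure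
tensors, `M ≤ O Q` contains all transvections `τ ⊗ 1` and `1 ⊗ τ`.
-/

set_option autoImplicit false

namespace Cfsg.Agent.H887.TenSp

open TensorProduct QuadraticMap Cfsg.Agent.LieClassical.OrthCore
  Cfsg.Agent.LieClassical.OrthTrans Cfsg.Agent.ClassicalGeometry.OrthAutBasic
  Cfsg.Agent.H887.SiegelMethod

section In

variable {F V : Type*} [Field F] [AddCommGroup V] [Module F V]

/-- The subgroup `M` contains the map `1 + n`. -/
def In (M : Subgroup (V ≃ₗ[F] V)) (n : Module.End F V) : Prop := ∃ s ∈ M, ∀ v, s v = v + n v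

variable {M : Subgroup (V ≃ₗ[F] V)} {n n' a b : Module.End F V}

theorem In.congr (h : In M n) (e : n = n') : In M n' := e ▸ h

theorem In.zero : In M (0 : Module.End F V) := ⟨1, M.one_mem, fun v => by simp⟩

theorem In.mul (h : In M n) (h' : In M n') : In M (n + n' + n * n') := by
  obtain ⟨s, hs, hs'⟩ := h
  obtain ⟨r, hr, hr'⟩ := h'
  refine ⟨s * r, M.mul_mem hs hr, fun v => ?_⟩
  show s (r v) = _
  rw [hr', map_add, hs', hs']
  simp only [LinearMap.add_apply, Module.End.mul_apply]
  abel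

theorem In.add (h : In M n) (h' : In M n') (e : n * n' = 0) : In M (n + n') := by
  have := h.mul h'
  rwa [e, add_zero] at this

theorem In.neg (h : In M n) (e : n * n = 0) : In M (-n) := by
  obtain ⟨s, hs, hs'⟩ := h
  refine ⟨s⁻¹, M.inv_mem hs, fun v => ?_⟩
  have h1 : s (v + (-n) v) = v := by
    rw [hs', LinearMap.neg_apply, map_add, map_neg]
    have : n (n v) = 0 := LinearMap.congr_fun e v
    rw [this]
    abel
  have h2 : s⁻¹ (s (v + (-n) v)) = v + (-n) v := LinearEquiv.symm_apply_apply s _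
  rw [h1] at h2
  exact h2

theorem In.sub (h : In M n) (h' : In M n') (e' : n' * n' = 0) (e : n * n' = 0) :
    In M (n - n') := by
  rw [sub_eq_add_neg]
  exact h.add (h'.neg e') (by rw [mul_neg, e, neg_zero])

theorem In.conj (h : In M n) {s : V ≃ₗ[F] V} (hs : s ∈ M) :
    In M ((s : V →ₗ[F] V) ∘ₗ n ∘ₗ (s⁻¹ : V ≃ₗ[F] V)) := by
  obtain ⟨r, hr, hr'⟩ := h
  refine ⟨s * r * s⁻¹, M.mul_mem (M.mul_mem hs hr) (M.inv_mem hs), fun v => ?_⟩
  show s (r (s⁻¹ v)) = v + s (n (s⁻¹ v))
  rw [hr', map_add]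
  congr 1
  exact LinearEquiv.apply_symm_apply s v

theorem In.conj' (h : In M n) (ha : In M a) (haa : a * a = 0) :
    In M ((1 + a) * n * (1 - a)) := by
  obtain ⟨s, hs, hs'⟩ := ha
  have h1 := h.conj hs
  refine h1.congr ?_
  ext v
  have h2 : s⁻¹ v = v - a v := by
    have h3 : s (v - a v) = v := by
      rw [hs', map_sub]
      have : a (a v) = 0 := LinearMap.congr_fun haa v
      rw [this]
      abel
    have h4 : s⁻¹ (s (v - a v)) = v - a v := LinearEquiv.symm_apply_apply s _
    rwa [h3] at h4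
  show s (n (s⁻¹ v)) = _
  rw [h2, hs']
  simp only [Module.End.mul_apply, LinearMap.add_apply, LinearMap.sub_apply, Module.End.one_apply]

/-- `n` maps into `A` and kills `A`. -/
structure Nil (A : Submodule F V) (n : Module.End F V) : Prop where
  im : ∀ v, n v ∈ A
  ker : ∀ v ∈ A, n v = 0

variable {A : Submodule F V}

theorem Nil.mul (h : Nil A n) (h' : Nil A n') : n * n' = 0 := by
  ext v
  exact h.ker _ (h'.im v)

theorem Nil.add (h : Nil A n) (h' : Nil A n') : Nil A (n + n') where
  im := fun v => A.add_mem (h.im v) (h'.im v)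
  ker := fun v hv => by rw [LinearMap.add_apply, h.ker v hv, h'.ker v hv, add_zero]

theorem Nil.neg (h : Nil A n) : Nil A (-n) where
  im := fun v => A.neg_mem (h.im v)
  ker := fun v hv => by rw [LinearMap.neg_apply, h.ker v hv, neg_zero]

theorem Nil.sub (h : Nil A n) (h' : Nil A n') : Nil A (n - n') := by
  rw [sub_eq_add_neg]
  exact h.add h'.neg

theorem Nil.smul (h : Nil A n) (c : F) : Nil A (c • n) where
  im := fun v => A.smul_mem c (h.im v)
  ker := fun v hv => by rw [LinearMap.smul_apply, h.ker v hv, smul_zero]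

theorem Nil.mul_left (h : Nil A n) (ha : ∀ v ∈ A, a v ∈ A) : Nil A (a * n) where
  im := fun v => ha _ (h.im v)
  ker := fun v hv => by rw [Module.End.mul_apply, h.ker v hv, map_zero]

theorem Nil.mul_right (h : Nil A n) (ha : ∀ v ∈ A, a v ∈ A) : Nil A (n * a) where
  im := fun v => h.im _
  ker := fun v hv => h.ker _ (ha v hv)

theorem Nil.comm (h : Nil A n) (ha : ∀ v ∈ A, a v ∈ A) : Nil A (a * n - n * a - a * n * a) :=
  ((h.mul_left ha).sub (h.mul_right ha)).sub ((h.mul_left ha).mul_right ha)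

/-- Commutator with `1 + a`. -/
theorem In.comm (h : In M n) (hN : Nil A n) (ha : In M a) (haa : a * a = 0)
    (hA : ∀ v ∈ A, a v ∈ A) : In M (a * n - n * a - a * n * a) := by
  have h1 := h.conj' ha haa
  have e : (1 + a) * n * (1 - a) = n + (a * n - n * a - a * n * a) := by noncomm_ring
  rw [e] at h1
  have h2 := (h1.add (h.neg (hN.mul hN)) ((hN.add (hN.comm hA)).mul hN.neg))
  refine h2.congr ?_
  abel

/-- Double commutator with `1 + a` and `1 + b`, where `a b = b a = 0`. -/
theorem In.comm2 (h : In M n) (hN : Nil A n) (ha : In M a) (haa : a * a = 0)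
    (hA : ∀ v ∈ A, a v ∈ A) (hb : In M b) (hbb : b * b = 0) (hB : ∀ v ∈ A, b v ∈ A)
    (hab : a * b = 0) (hba : b * a = 0) : In M (-(b * n * a + a * n * b)) := by
  have h1 := (h.comm hN ha haa hA).comm (hN.comm hA) hb hbb hB
  refine h1.congr ?_
  have e1 : b * (a * n - n * a - a * n * a) = -(b * n * a) := by
    have : b * (a * n - n * a - a * n * a) = (b * a) * n - b * n * a - (b * a) * n * a := by
      noncomm_ring
    rw [this, hba]
    simp
  have e2 : (a * n - n * a - a * n * a) * b = a * n * b := by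
    have : (a * n - n * a - a * n * a) * b = a * n * b - n * (a * b) - a * n * (a * b) := by
      noncomm_ring
    rw [this, hab]
    simp
  rw [e1, e2]
  have e3 : -(b * n * a) * b = -(b * n * (a * b)) := by noncomm_ring
  rw [e3, hab]
  simp only [mul_zero, neg_zero, sub_zero]
  abel

end In

section Root

variable {F V : Type*} [Field F] [AddCommGroup V] [Module F V] (Q : QuadraticForm F V)

/-- `v ↦ B(a,v) b - B(b,v) a`. -/
def rt (a b : V) : Module.End F V :=
  (polarBilin Q a).smulRight b - (polarBilin Q b).smulRight a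

variable {Q}

theorem rt_apply (a b v : V) : rt Q a b v = polar Q a v • b - polar Q b v • a := rfl

theorem mem_Ts_of_In {M : Subgroup (V ≃ₗ[F] V)} {a b : V} (ha : Q a = 0) (hb : Q b = 0)
    (hab : polar Q a b = 0) (h : ∀ c : F, In M (c • rt Q a b)) : b ∈ Ts Q M a := by
  refine ⟨hab, fun c => ?_⟩
  obtain ⟨s, hs, hs'⟩ := h c
  have e : T Q a (c • b) = s := by
    ext v
    rw [hs', T_apply_root ha (by rw [QuadraticMap.map_smul, hb, smul_zero])
      (by rw [polar_smul_right, hab, smul_zero]), LinearMap.smul_apply, rt_apply,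
      polar_smul_left]
    module
  rw [e]
  exact hs

end Root

variable {F U W : Type*} [Field F] [AddCommGroup U] [Module F U] [AddCommGroup W] [Module F W]

/-- `Q` has polar form `f ⊗ g` and vanishes on pure tensors. -/
structure Sp2 (f : LinearMap.BilinForm F U) (g : LinearMap.BilinForm F W)
    (Q : QuadraticForm F (U ⊗[F] W)) : Prop where
  hf : Alt f
  hg : Alt g
  Qp : ∀ x y, Q (x ⊗ₜ y) = 0
  pol : ∀ x x' y y', polar Q (x ⊗ₜ y) (x' ⊗ₜ y') = f x x' * g y y'

variable {f : LinearMap.BilinForm F U} {g : LinearMap.BilinForm F W}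
  {Q : QuadraticForm F (U ⊗[F] W)}

theorem Sp2.polW (h : Sp2 f g Q) (x : U) (y : W) (v : U ⊗[F] W) :
    polar Q (x ⊗ₜ y) v = f x (kW U g y v) := by
  induction v with
  | zero => simp
  | tmul x' y' => rw [h.pol, kW_tmul, map_smul, smul_eq_mul, mul_comm]
  | add v v' hv hv' => rw [polar_add_right, hv, hv', map_add, map_add]

theorem Sp2.polU (h : Sp2 f g Q) (x : U) (y : W) (v : U ⊗[F] W) :
    polar Q (x ⊗ₜ y) v = g y (kU f W x v) := by
  induction v with
  | zero => simp
  | tmul x' y' => rw [h.pol, kU_tmul, map_smul, smul_eq_mul]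
  | add v v' hv hv' => rw [polar_add_right, hv, hv', map_add, map_add]

theorem Sp2.nondeg [FiniteDimensional F U] (h : Sp2 f g Q) : Nondeg Q := by
  intro v hv
  apply eq_zero_of_kW h.hg
  intro w
  apply h.hf.nd' _ fun x => ?_
  rw [← h.polW, polar_comm, hv]

theorem kU_map (u : U) (R : Module.End F W) (v : U ⊗[F] W) :
    kU f W u (TensorProduct.map 1 R v) = R (kU f W u v) := by
  induction v with
  | zero => simp
  | tmul x y => simp
  | add v v' hv hv' => rw [map_add, map_add, map_add, map_add, hv, hv']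

theorem kW_map (w : W) (S : Module.End F U) (v : U ⊗[F] W) :
    kW U g w (TensorProduct.map S 1 v) = S (kW U g w v) := by
  induction v with
  | zero => simp
  | tmul x y => simp
  | add v v' hv hv' => rw [map_add, map_add, map_add, map_add, hv, hv']

theorem map_E1_left (x y : U) (R : Module.End F W) (v : U ⊗[F] W) :
    TensorProduct.map (E1 f x y) R v = x ⊗ₜ R (kU f W y v) := by
  induction v with
  | zero => simp
  | tmul z t => rw [map_tmul, E1_apply, kU_tmul, map_smul, TensorProduct.smul_tmul]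
  | add v v' hv hv' => rw [map_add, hv, hv', map_add, map_add, TensorProduct.tmul_add]

theorem map_E1_right (x y : W) (S : Module.End F U) (v : U ⊗[F] W) :
    TensorProduct.map S (E1 g x y) v = S (kW U g y v) ⊗ₜ x := by
  induction v with
  | zero => simp
  | tmul z t => rw [map_tmul, E1_apply, kW_tmul, map_smul, TensorProduct.smul_tmul]
  | add v v' hv hv' => rw [map_add, hv, hv', map_add, map_add, TensorProduct.add_tmul]

/-- The root operator of two pure tensors. -/
theorem Sp2.rt_eq (h : Sp2 f g Q) (x x' : U) (y y' : W) :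
    rt Q (x ⊗ₜ[F] y) (x' ⊗ₜ y') = TensorProduct.map (E1 f x' x) (E1 g y' y) -
      TensorProduct.map (E1 f x x') (E1 g y y') := by
  apply TensorProduct.ext'
  intro z t
  rw [rt_apply, h.pol, h.pol, LinearMap.sub_apply, map_tmul, map_tmul]
  simp only [E1_apply, ← TensorProduct.smul_tmul', TensorProduct.tmul_smul]
  module

/-- The standing hypothesis. -/
structure Hy (f : LinearMap.BilinForm F U) (g : LinearMap.BilinForm F W)
    (Q : QuadraticForm F (U ⊗[F] W)) (M : Subgroup ((U ⊗[F] W) ≃ₗ[F] (U ⊗[F] W))) : Prop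
    extends Sp2 f g Q where
  hO : M ≤ O Q
  hU : ∀ (u : U) (c : F), In M (c • TensorProduct.map (E1 f u u) 1)
  hW : ∀ (w : W) (c : F), In M (c • TensorProduct.map 1 (E1 g w w))

variable {M : Subgroup ((U ⊗[F] W) ≃ₗ[F] (U ⊗[F] W))}

theorem map_mul' (S S' : Module.End F U) (R R' : Module.End F W) :
    (TensorProduct.map S R : Module.End F (U ⊗[F] W)) * TensorProduct.map S' R' =
      TensorProduct.map (S * S') (R * R') := (TensorProduct.map_mul _ _ _ _).symm

theorem NU_sq (hf : Alt f) (u : U) (c : F) :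
    (c • TensorProduct.map (E1 f u u) (1 : Module.End F W)) *
      (c • TensorProduct.map (E1 f u u) (1 : Module.End F W)) = 0 := by
  rw [smul_mul_smul_comm, map_mul', E1_mul, hf.alt, zero_smul, TensorProduct.map_zero_left,
    smul_zero]

theorem NW_sq (hg : Alt g) (w : W) (c : F) :
    (c • TensorProduct.map (1 : Module.End F U) (E1 g w w)) *
      (c • TensorProduct.map (1 : Module.End F U) (E1 g w w)) = 0 := by
  rw [smul_mul_smul_comm, map_mul', E1_mul, hg.alt, zero_smul, TensorProduct.map_zero_right,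
    smul_zero]

/-! ### Elements `A ⊗ 1` and `1 ⊗ B` -/

/-- `A ↦ A ⊗ 1`. -/
noncomputable def actU (W : Type*) [AddCommGroup W] [Module F W] :
    (U ≃ₗ[F] U) →* ((U ⊗[F] W) ≃ₗ[F] (U ⊗[F] W)) where
  toFun := fun A => TensorProduct.congr A (LinearEquiv.refl F W)
  map_one' := by
    ext v
    induction v with
    | zero => simp
    | tmul x y => simp
    | add v v' hv hv' => rw [map_add, hv, hv', map_add]
  map_mul' := fun A B => by
    ext v
    induction v with
    | zero => simp
    | tmul x y => simp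
    | add v v' hv hv' => rw [map_add, hv, hv', map_add]

/-- `B ↦ 1 ⊗ B`. -/
noncomputable def actW (U : Type*) [AddCommGroup U] [Module F U] :
    (W ≃ₗ[F] W) →* ((U ⊗[F] W) ≃ₗ[F] (U ⊗[F] W)) where
  toFun := fun B => TensorProduct.congr (LinearEquiv.refl F U) B
  map_one' := by
    ext v
    induction v with
    | zero => simp
    | tmul x y => simp
    | add v v' hv hv' => rw [map_add, hv, hv', map_add]
  map_mul' := fun A B => by
    ext v
    induction v with
    | zero => simp
    | tmul x y => simp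
    | add v v' hv hv' => rw [map_add, hv, hv', map_add]

@[simp] theorem actU_tmul (A : U ≃ₗ[F] U) (x : U) (y : W) : actU W A (x ⊗ₜ y) = A x ⊗ₜ y := by
  simp [actU]

@[simp] theorem actW_tmul (B : W ≃ₗ[F] W) (x : U) (y : W) : actW U B (x ⊗ₜ y) = x ⊗ₜ B y := by
  simp [actW]

/-- Two automorphisms agreeing on pure tensors are equal. -/
theorem ext_pure {s r : (U ⊗[F] W) ≃ₗ[F] (U ⊗[F] W)} (h : ∀ x y, s (x ⊗ₜ y) = r (x ⊗ₜ y)) :
    s = r := by
  ext v
  induction v with
  | zero => simp
  | tmul x y => exact h x y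
  | add v v' hv hv' => rw [map_add, hv, hv', map_add]

/-- Isometries of `f` whose action on the first factor is in `M`. -/
def GU (f : LinearMap.BilinForm F U) (M : Subgroup ((U ⊗[F] W) ≃ₗ[F] (U ⊗[F] W))) :
    Subgroup (U ≃ₗ[F] U) where
  carrier := {A | (∀ z z', f (A z) (A z') = f z z') ∧ actU W A ∈ M}
  one_mem' := ⟨fun _ _ => rfl, by rw [map_one]; exact M.one_mem⟩
  mul_mem' := by
    rintro A B ⟨hA, hA'⟩ ⟨hB, hB'⟩
    refine ⟨fun z z' => ?_, by rw [map_mul]; exact M.mul_mem hA' hB'⟩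
    show f (A (B z)) (A (B z')) = _
    rw [hA, hB]
  inv_mem' := by
    rintro A ⟨hA, hA'⟩
    refine ⟨fun z z' => ?_, by rw [map_inv]; exact M.inv_mem hA'⟩
    rw [← hA]
    have e : ∀ z, A (A⁻¹ z) = z := fun z => LinearEquiv.apply_symm_apply A z
    rw [e, e]

/-- Isometries of `g` whose action on the second factor is in `M`. -/
def GW (g : LinearMap.BilinForm F W) (M : Subgroup ((U ⊗[F] W) ≃ₗ[F] (U ⊗[F] W))) :
    Subgroup (W ≃ₗ[F] W) where
  carrier := {A | (∀ z z', g (A z) (A z') = g z z') ∧ actW U A ∈ M}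
  one_mem' := ⟨fun _ _ => rfl, by rw [map_one]; exact M.one_mem⟩
  mul_mem' := by
    rintro A B ⟨hA, hA'⟩ ⟨hB, hB'⟩
    refine ⟨fun z z' => ?_, by rw [map_mul]; exact M.mul_mem hA' hB'⟩
    show g (A (B z)) (A (B z')) = _
    rw [hA, hB]
  inv_mem' := by
    rintro A ⟨hA, hA'⟩
    refine ⟨fun z z' => ?_, by rw [map_inv]; exact M.inv_mem hA'⟩
    rw [← hA]
    have e : ∀ z, A (A⁻¹ z) = z := fun z => LinearEquiv.apply_symm_apply A z
    rw [e, e]

/-- The transvection `z ↦ z + c f(u,z) u`. -/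
noncomputable def tv (hf : Alt f) (u : U) (c : F) : U ≃ₗ[F] U :=
  LinearEquiv.ofLinearMap (LinearMap.id + c • E1 f u u) (LinearMap.id - c • E1 f u u)
    (by
      ext z
      simp [hf.alt])
    (by
      ext z
      simp [hf.alt])

@[simp] theorem tv_apply (hf : Alt f) (u : U) (c : F) (z : U) :
    tv hf u c z = z + (c * f u z) • u := by
  simp [tv, smul_smul]

theorem tv_isom (hf : Alt f) (u : U) (c : F) (z z' : U) :
    f (tv hf u c z) (tv hf u c z') = f z z' := by
  simp only [tv_apply, map_add, LinearMap.add_apply, map_smul, LinearMap.smul_apply, smul_eq_mul,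
    hf.alt]
  rw [hf.neg z u]
  ring

theorem Hy.tvU (h : Hy f g Q M) (u : U) (c : F) : tv h.hf u c ∈ GU f M := by
  refine ⟨tv_isom h.hf u c, ?_⟩
  obtain ⟨s, hs, hs'⟩ := h.hU u c
  have e : actU W (tv h.hf u c) = s := by
    apply ext_pure
    intro x y
    rw [hs', actU_tmul, tv_apply, TensorProduct.add_tmul, LinearMap.smul_apply, map_tmul,
      E1_apply, mul_smul, Module.End.one_apply, TensorProduct.smul_tmul']
  rw [e]
  exact hs

theorem Hy.tvW (h : Hy f g Q M) (w : W) (c : F) : tv h.hg w c ∈ GW g M := by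
  refine ⟨tv_isom h.hg w c, ?_⟩
  obtain ⟨s, hs, hs'⟩ := h.hW w c
  have e : actW U (tv h.hg w c) = s := by
    apply ext_pure
    intro x y
    rw [hs', actW_tmul, tv_apply, TensorProduct.tmul_add, LinearMap.smul_apply, map_tmul,
      E1_apply, mul_smul, Module.End.one_apply, TensorProduct.tmul_smul, TensorProduct.tmul_smul]
  rw [e]
  exact hs

theorem Alt.exists_both (hf : Alt f) {x y : U} (hx : x ≠ 0) (hy : y ≠ 0) :
    ∃ z, f x z ≠ 0 ∧ f z y ≠ 0 := by
  obtain ⟨z1, h1⟩ := hf.exists_ne hx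
  obtain ⟨z2, h2⟩ := hf.exists_ne' hy
  by_cases h3 : f z1 y = 0
  · by_cases h4 : f x z2 = 0
    · refine ⟨z1 + z2, ?_, ?_⟩
      · rw [map_add, h1, h4, add_zero]
        exact one_ne_zero
      · rw [map_add, LinearMap.add_apply, h3, h2, zero_add]
        exact one_ne_zero
    · exact ⟨z2, h4, by rw [h2]; exact one_ne_zero⟩
  · exact ⟨z1, by rw [h1]; exact one_ne_zero, h3⟩

theorem tv_sub (hf : Alt f) {x y : U} (hxy : f x y ≠ 0) : tv hf (x - y) (-(f x y)⁻¹) x = y := by
  rw [tv_apply, map_sub, LinearMap.sub_apply, hf.alt, hf.neg y x]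
  have : -(f x y)⁻¹ * (0 - -f x y) = -1 := by
    field_simp
    ring
  rw [this]
  simp

/-- A subgroup containing all transvections is transitive on nonzero vectors. -/
theorem trans_of_tv (hf : Alt f) {G : Subgroup (U ≃ₗ[F] U)} (hG : ∀ u c, tv hf u c ∈ G)
    {x y : U} (hx : x ≠ 0) (hy : y ≠ 0) : ∃ A ∈ G, A x = y := by
  obtain ⟨z, h1, h2⟩ := hf.exists_both hx hy
  refine ⟨tv hf (z - y) (-(f z y)⁻¹) * tv hf (x - z) (-(f x z)⁻¹), G.mul_mem (hG _ _) (hG _ _), ?_⟩
  show tv hf (z - y) (-(f z y)⁻¹) (tv hf (x - z) (-(f x z)⁻¹) x) = y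
  rw [tv_sub hf h1, tv_sub hf h2]

theorem Hy.transU (h : Hy f g Q M) {x y : U} (hx : x ≠ 0) (hy : y ≠ 0) :
    ∃ A ∈ GU f M, A x = y := trans_of_tv h.hf h.tvU hx hy

theorem Hy.transW (h : Hy f g Q M) {x y : W} (hx : x ≠ 0) (hy : y ≠ 0) :
    ∃ A ∈ GW g M, A x = y := trans_of_tv h.hg h.tvW hx hy

/-- Short root elements. -/
theorem Hy.shortU (h : Hy f g Q M) {x y : U} (hxy : f x y = 0) (c : F) :
    In M (c • TensorProduct.map (E1 f x y + E1 f y x) 1) := by
  have hyx := h.hf.comm_zero hxy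
  have h1 := (h.hU (x + y) c).sub (h.hU x c) (NU_sq h.hf x c) (by
    rw [smul_mul_smul_comm, map_mul', E1_mul, map_add, LinearMap.add_apply, h.hf.alt, hyx,
      add_zero, zero_smul, TensorProduct.map_zero_left, smul_zero])
  have h2 := h1.sub (h.hU y c) (NU_sq h.hf y c) (by
    rw [sub_mul, smul_mul_smul_comm, smul_mul_smul_comm, map_mul', map_mul', E1_mul, E1_mul,
      map_add, LinearMap.add_apply, h.hf.alt, hxy, add_zero, zero_smul, zero_smul,
      TensorProduct.map_zero_left, smul_zero, sub_zero])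
  refine h2.congr ?_
  rw [E1_add_left, E1_add_right, E1_add_right]
  simp only [TensorProduct.map_add_left, smul_add]
  abel

theorem Hy.shortW (h : Hy f g Q M) {x y : W} (hxy : g x y = 0) (c : F) :
    In M (c • TensorProduct.map 1 (E1 g x y + E1 g y x)) := by
  have hyx := h.hg.comm_zero hxy
  have h1 := (h.hW (x + y) c).sub (h.hW x c) (NW_sq h.hg x c) (by
    rw [smul_mul_smul_comm, map_mul', E1_mul, map_add, LinearMap.add_apply, h.hg.alt, hyx,
      add_zero, zero_smul, TensorProduct.map_zero_right, smul_zero])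
  have h2 := h1.sub (h.hW y c) (NW_sq h.hg y c) (by
    rw [sub_mul, smul_mul_smul_comm, smul_mul_smul_comm, map_mul', map_mul', E1_mul, E1_mul,
      map_add, LinearMap.add_apply, h.hg.alt, hxy, add_zero, zero_smul, zero_smul,
      TensorProduct.map_zero_right, smul_zero, sub_zero])
  refine h2.congr ?_
  rw [E1_add_left, E1_add_right, E1_add_right]
  simp only [TensorProduct.map_add_right, smul_add]
  abel

end Cfsg.Agent.H887.TenSp
end

-- part: H887/TenSp/Root
section
/-!
If `M` (as in `Hy`) contains a long root element of pure tensors then it contains `E Q`.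
-/

set_option autoImplicit false
set_option linter.unusedSectionVars false

namespace Cfsg.Agent.H887.TenSp

open TensorProduct QuadraticMap Cfsg.Agent.LieClassical.OrthCore
  Cfsg.Agent.LieClassical.OrthTrans Cfsg.Agent.ClassicalGeometry.OrthAutBasic
  Cfsg.Agent.H887.SiegelMethod

variable {F U W : Type*} [Field F] [AddCommGroup U] [Module F U] [AddCommGroup W] [Module F W]
  [FiniteDimensional F U] [FiniteDimensional F W]
  {f : LinearMap.BilinForm F U} {g : LinearMap.BilinForm F W}
  {Q : QuadraticForm F (U ⊗[F] W)} {M : Subgroup ((U ⊗[F] W) ≃ₗ[F] (U ⊗[F] W))}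

/-- There is a vector in `⟨a, b⟩^⊥` outside `⟨a, b⟩` if the dimension is at least 5. -/
theorem Alt.exists_perp_not_mem (hg : Alt g) (hd : 5 ≤ Module.finrank F W) (a b : W) :
    ∃ t, g t a = 0 ∧ g t b = 0 ∧ t ∉ Submodule.span F {a, b} := by
  by_contra hcon
  push Not at hcon
  have h1 : perp g (Submodule.span F {a, b}) ≤ Submodule.span F {a, b} := by
    intro t ht
    refine hcon t ?_ ?_
    · exact hg.comm_zero (ht a (Submodule.subset_span (by simp)))
    · exact hg.comm_zero (ht b (Submodule.subset_span (by simp)))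
  have h2 := hg.finrank_perp (Submodule.span F {a, b})
  have h3 := finrank_span_pair_le (F := F) a b
  have h4 := Submodule.finrank_mono h1
  omega

theorem Hy.memO (h : Hy f g Q M) {s : (U ⊗[F] W) ≃ₗ[F] (U ⊗[F] W)} (hs : s ∈ M) : s ∈ O Q :=
  h.hO hs

/-- `Ts` transported by `A ⊗ 1`. -/
theorem Hy.Ts_actU (h : Hy f g Q M) {A : U ≃ₗ[F] U} (hA : A ∈ GU f M) {x x' : U} {y y' : W}
    (hx : x' ⊗ₜ y' ∈ Ts Q M (x ⊗ₜ y)) : A x' ⊗ₜ y' ∈ Ts Q M (A x ⊗ₜ y) := by
  have := map_mem_Ts hA.2 (h.hO hA.2) hx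
  rwa [actU_tmul, actU_tmul] at this

theorem Hy.Ts_actW (h : Hy f g Q M) {A : W ≃ₗ[F] W} (hA : A ∈ GW g M) {x x' : U} {y y' : W}
    (hx : x' ⊗ₜ y' ∈ Ts Q M (x ⊗ₜ y)) : x' ⊗ₜ A y' ∈ Ts Q M (x ⊗ₜ A y) := by
  have := map_mem_Ts hA.2 (h.hO hA.2) hx
  rwa [actW_tmul, actW_tmul] at this

/-- Moving the second factor inside `w^⊥`. -/
theorem Hy.spreadW (h : Hy f g Q M) {x x' : U} {w w' : W} (hw : w' ∉ Submodule.span F {w})
    (hx : x' ⊗ₜ w' ∈ Ts Q M (x ⊗ₜ w)) {t : W} (ht : g t w = 0) :
    x' ⊗ₜ t ∈ Ts Q M (x ⊗ₜ w) := by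
  have key : ∀ s : W, g s w = 0 → g s w' ≠ 0 → x' ⊗ₜ s ∈ Ts Q M (x ⊗ₜ w) := by
    intro s hs hs'
    have h1 := h.Ts_actW (h.tvW s 1) hx
    rw [tv_apply, tv_apply, hs, mul_zero, zero_smul, add_zero, TensorProduct.tmul_add] at h1
    have h2 := (Ts Q M (x ⊗ₜ[F] w)).sub_mem h1 hx
    rw [add_sub_cancel_left, one_mul, TensorProduct.tmul_smul] at h2
    exact (Submodule.smul_mem_iff _ hs').1 h2
  by_cases h1 : g t w' = 0
  · obtain ⟨s, hs, hs'⟩ := h.hg.sep1 hw
    have h2 := key (t + s) (by rw [map_add, LinearMap.add_apply, ht, hs', add_zero])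
      (by rw [map_add, LinearMap.add_apply, h1, hs, zero_add]; exact one_ne_zero)
    have h3 := key s hs' (by rw [hs]; exact one_ne_zero)
    have h4 := (Ts Q M (x ⊗ₜ[F] w)).sub_mem h2 h3
    rwa [TensorProduct.tmul_add, add_sub_cancel_right] at h4
  · exact key t ht h1

/-- Moving the first factor inside `u^⊥`. -/
theorem Hy.spreadU (h : Hy f g Q M) {x x' : U} {w w' : W} (hw : x' ∉ Submodule.span F {x})
    (hx : x' ⊗ₜ w' ∈ Ts Q M (x ⊗ₜ w)) {t : U} (ht : f t x = 0) :
    t ⊗ₜ w' ∈ Ts Q M (x ⊗ₜ w) := by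
  have key : ∀ s : U, f s x = 0 → f s x' ≠ 0 → s ⊗ₜ w' ∈ Ts Q M (x ⊗ₜ w) := by
    intro s hs hs'
    have h1 := h.Ts_actU (h.tvU s 1) hx
    rw [tv_apply, tv_apply, hs, mul_zero, zero_smul, add_zero, TensorProduct.add_tmul] at h1
    have h2 := (Ts Q M (x ⊗ₜ[F] w)).sub_mem h1 hx
    rw [add_sub_cancel_left, one_mul, ← TensorProduct.smul_tmul'] at h2
    exact (Submodule.smul_mem_iff _ hs').1 h2
  by_cases h1 : f t x' = 0
  · obtain ⟨s, hs, hs'⟩ := h.hf.sep1 hw
    have h2 := key (t + s) (by rw [map_add, LinearMap.add_apply, ht, hs', add_zero])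
      (by rw [map_add, LinearMap.add_apply, h1, hs, zero_add]; exact one_ne_zero)
    have h3 := key s hs' (by rw [hs]; exact one_ne_zero)
    have h4 := (Ts Q M (x ⊗ₜ[F] w)).sub_mem h2 h3
    rwa [TensorProduct.add_tmul, add_sub_cancel_right] at h4
  · exact key t ht h1

/-- All root elements `(u ⊗ w, u ⊗ w')` with `w ⊥ w'`. -/
def Beta (g : LinearMap.BilinForm F W) (Q : QuadraticForm F (U ⊗[F] W))
    (M : Subgroup ((U ⊗[F] W) ≃ₗ[F] (U ⊗[F] W))) : Prop :=
  ∀ (u : U) (w w' : W), g w' w = 0 → u ⊗ₜ w' ∈ Ts Q M (u ⊗ₜ w)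

theorem Hy.beta_of (h : Hy f g Q M) {u : U} {w w' : W} (hu : u ≠ 0) (hw : w ≠ 0)
    (hw' : w' ∉ Submodule.span F {w}) (hx : u ⊗ₜ w' ∈ Ts Q M (u ⊗ₜ w)) : Beta g Q M := by
  intro u1 w1 w1' hw1
  by_cases hu1 : u1 = 0
  · rw [hu1, TensorProduct.zero_tmul, TensorProduct.zero_tmul]
    exact (Ts Q M _).zero_mem
  by_cases hw1z : w1 = 0
  · rw [hw1z, TensorProduct.tmul_zero]
    refine ⟨polar_zero_left Q _, fun c => ?_⟩
    rw [T_zero_left]
    exact M.one_mem
  obtain ⟨A, hA, hA'⟩ := h.transU hu hu1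
  obtain ⟨B, hB, hB'⟩ := h.transW hw hw1z
  have h1 := h.spreadW hw' hx (t := B⁻¹ w1') (by
    have e : ∀ z, B (B⁻¹ z) = z := fun z => LinearEquiv.apply_symm_apply B z
    rw [← hB.1, e, hB', hw1])
  have h2 := h.Ts_actW hB (h.Ts_actU hA h1)
  have e : B (B⁻¹ w1') = w1' := LinearEquiv.apply_symm_apply B w1'
  rwa [hA', hB', e] at h2

theorem Hy.E_le_of_beta [Finite F] (h : Hy f g Q M) (hd : 5 ≤ Module.finrank F W)
    (hU0 : ∃ u : U, u ≠ 0) (hbig : Big Q) (hb : Beta g Q M) : E Q ≤ M := by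
  -- `U ⊗ w^⊥`
  have c3 : ∀ (u : U) (w : W), w ≠ 0 → u ≠ 0 → ∀ (u1 : U) (w1' : W), g w1' w = 0 →
      u1 ⊗ₜ w1' ∈ Ts Q M (u ⊗ₜ w) := by
    intro u w hw hu
    have key : ∀ (u1 : U) (w1' : W), f u1 u ≠ 0 → g w1' w = 0 →
        u1 ⊗ₜ w1' ∈ Ts Q M (u ⊗ₜ w) := by
      intro u1 w1' hu1 hw1'
      obtain ⟨t, ht1, ht2, ht3⟩ := h.hg.exists_perp_not_mem hd w w1'
      obtain ⟨w1, hw1, hw2, hw3⟩ := h.hg.sep2 ht3
      have hz : u ⊗ₜ t ∈ Ts Q M (u ⊗ₜ w) := hb u w t ht1
      have hT : T Q (u1 ⊗ₜ w1) (u1 ⊗ₜ w1') ∈ M :=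
        Ts_mem (hb u1 w1 w1' (h.hg.comm_zero hw3))
      have h1 := root_mem_Ts h.hO (h.Qp u1 w1) (h.Qp u1 w1')
        (by rw [h.pol, h.hf.alt, zero_mul]) hT (u := u ⊗ₜ w) (by
          rw [T_apply_root (h.Qp u1 w1) (h.Qp u1 w1') (by rw [h.pol, h.hf.alt, zero_mul]),
            h.pol, h.pol, hw2, hw1', mul_zero, zero_smul, zero_smul, add_zero, sub_zero]) hz
      rw [h.pol, h.pol, hw1, h.hg.comm_zero ht2, mul_one, mul_zero, zero_smul, sub_zero] at h1
      exact (Submodule.smul_mem_iff _ hu1).1 h1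
    intro u1 w1' hw1'
    by_cases h1 : f u1 u = 0
    · obtain ⟨u2, hu2⟩ := h.hf.exists_ne' hu
      have h2 := key (u1 + u2) w1' (by
        rw [map_add, LinearMap.add_apply, h1, hu2, zero_add]; exact one_ne_zero) hw1'
      have h3 := key u2 w1' (by rw [hu2]; exact one_ne_zero) hw1'
      have h4 := (Ts Q M (u ⊗ₜ[F] w)).sub_mem h2 h3
      rwa [TensorProduct.add_tmul, add_sub_cancel_right] at h4
    · exact key u1 w1' h1 hw1'
  -- `u^⊥ ⊗ W`
  have c4 : ∀ (u : U) (w : W), w ≠ 0 → u ≠ 0 → ∀ (u1 : U) (w1' : W), f u1 u = 0 →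
      u1 ⊗ₜ w1' ∈ Ts Q M (u ⊗ₜ w) := by
    intro u w hw hu u1 w1' hu1
    by_cases hu1z : u1 = 0
    · rw [hu1z, TensorProduct.zero_tmul]
      exact zero_mem _
    obtain ⟨u2, hu2⟩ := h.hf.exists_ne hu1z
    obtain ⟨t, ht1, ht2, ht3⟩ := h.hg.exists_perp_not_mem hd w w1'
    obtain ⟨w1, hw1, hw2, hw3⟩ := h.hg.sep2 ht3
    have hz : u2 ⊗ₜ t ∈ Ts Q M (u ⊗ₜ w) := c3 u w hw hu u2 t ht1
    have hT : T Q (u1 ⊗ₜ w1) (u1 ⊗ₜ w1') ∈ M :=
      Ts_mem (hb u1 w1 w1' (h.hg.comm_zero hw3))
    have h1 := root_mem_Ts h.hO (h.Qp u1 w1) (h.Qp u1 w1')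
      (by rw [h.pol, h.hf.alt, zero_mul]) hT (u := u ⊗ₜ w) (by
        rw [T_apply_root (h.Qp u1 w1) (h.Qp u1 w1') (by rw [h.pol, h.hf.alt, zero_mul]),
          h.pol, h.pol, hu1, zero_mul, zero_mul, zero_smul, zero_smul, add_zero, sub_zero]) hz
    rw [h.pol, h.pol, hw1, h.hg.comm_zero ht2, mul_one, mul_zero, zero_smul, sub_zero, hu2,
      one_smul] at h1
    exact h1
  -- everything
  have c5 : ∀ (u : U) (w : W), w ≠ 0 → u ≠ 0 → ∀ v, polar Q (u ⊗ₜ w) v = 0 →
      v ∈ Ts Q M (u ⊗ₜ w) := by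
    intro u w hw hu v hv
    obtain ⟨w0, hw0⟩ := h.hg.exists_ne hw
    have h1 : f u (kW U g w v) = 0 := by rw [← h.polW]; exact hv
    have h2 : v - kW U g w v ⊗ₜ w0 ∈ Ts Q M (u ⊗ₜ w) := by
      have h3 : UL U (perp g (Submodule.span F {w})) ≤ Ts Q M (u ⊗ₜ w) := by
        refine Submodule.span_le.2 ?_
        rintro _ ⟨z, t, ht, rfl⟩
        exact c3 u w hw hu z t (h.hg.comm_zero (ht w (Submodule.mem_span_singleton_self w)))
      apply h3
      rw [mem_UL_iff h.hg, h.hg.perp_perp]
      intro w' hw'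
      obtain ⟨c, rfl⟩ := Submodule.mem_span_singleton.1 hw'
      rw [kW_smul, map_sub, kW_tmul, hw0, one_smul, sub_self, smul_zero]
    have h3 := (Ts Q M (u ⊗ₜ[F] w)).add_mem h2 (c4 u w hw hu _ w0 (h.hf.comm_zero h1))
    rwa [sub_add_cancel] at h3
  obtain ⟨u, hu⟩ := hU0
  have hW0 : ∃ w : W, w ≠ 0 := by
    obtain ⟨t, -, -, ht⟩ := h.hg.exists_perp_not_mem hd 0 0
    refine ⟨t, ?_⟩
    rintro rfl
    exact ht (zero_mem _)
  obtain ⟨w, hw⟩ := hW0
  obtain ⟨u', hu'⟩ := h.hf.exists_ne hu
  obtain ⟨w', hw'⟩ := h.hg.exists_ne hw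
  have hu'0 : u' ≠ 0 := by rintro rfl; simp at hu'
  have hw'0 : w' ≠ 0 := by rintro rfl; simp at hw'
  exact E_le_of_Ts hbig.good (h.Qp u w) (h.Qp u' w') (by
    rw [h.pol, hu', hw', one_mul]; exact one_ne_zero) (c5 u w hw hu) (c5 u' w' hw'0 hu'0)

/-- A root element `(u ⊗ w, u' ⊗ w)` with `u ⊥ u'` gives `Beta`. -/
theorem Hy.beta_of_gamma (h : Hy f g Q M) (hdU : 3 ≤ Module.finrank F U) {u u' : U} {w : W} (hu : u ≠ 0) (hw : w ≠ 0)
    (hu' : u' ∉ Submodule.span F {u}) (hx : u' ⊗ₜ w ∈ Ts Q M (u ⊗ₜ w)) : Beta g Q M := by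
  -- all `(a ⊗ b, c ⊗ b)` with `a ⊥ c`
  have c1 : ∀ (a c : U) (b : W), f c a = 0 → a ≠ 0 → b ≠ 0 → c ⊗ₜ b ∈ Ts Q M (a ⊗ₜ b) := by
    intro a c b hac ha hb
    obtain ⟨A, hA, hA'⟩ := h.transU hu ha
    obtain ⟨B, hB, hB'⟩ := h.transW hw hb
    have e : ∀ z, A (A⁻¹ z) = z := fun z => LinearEquiv.apply_symm_apply A z
    have h1 := h.spreadU hu' hx (t := A⁻¹ c) (by rw [← hA.1, e, hA', hac])
    have h2 := h.Ts_actW hB (h.Ts_actU hA h1)
    rwa [hA', hB', e] at h2
  -- a vector `u1 ⊥ u` with `u1 ∉ ⟨u⟩`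
  have hsp : Submodule.span F {u} ≠ ⊤ := by
    intro e
    have h1 := finrank_span_pair_le (F := F) u u
    rw [Set.pair_eq_singleton, e, finrank_top] at h1
    omega
  obtain ⟨u0, hu0, hu0'⟩ : ∃ u0, f u0 u = 0 ∧ u0 ∉ Submodule.span F {u} := by
    by_contra hcon
    push Not at hcon
    have h1 : perp f (Submodule.span F {u}) ≤ Submodule.span F {u} := fun x hx =>
      hcon x (h.hf.comm_zero (hx u (Submodule.mem_span_singleton_self u)))
    have h2 := Submodule.finrank_mono h1
    have h3 := h.hf.finrank_perp (Submodule.span F {u})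
    have h4 := finrank_span_singleton (K := F) hu
    omega
  obtain ⟨u1, hu1, hu1'⟩ := h.hf.sep1 hu0'
  -- `u ⊗ w1 ∈ Ts (u ⊗ w)` for `g w1 w ≠ 0`
  have key : ∀ w1 : W, g w1 w ≠ 0 → u ⊗ₜ w1 ∈ Ts Q M (u ⊗ₜ w) := by
    intro w1 hw1
    have hw1z : w1 ≠ 0 := by rintro rfl; simp at hw1
    have hu1z : u1 ≠ 0 := by rintro rfl; simp at hu1
    have hT : T Q (u1 ⊗ₜ w1) (u ⊗ₜ w1) ∈ M :=
      Ts_mem (c1 u1 u w1 (h.hf.comm_zero hu1') hu1z hw1z)
    have hz : u0 ⊗ₜ w ∈ Ts Q M (u ⊗ₜ w) := c1 u u0 w hu0 hu hw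
    have hp : polar Q (u1 ⊗ₜ[F] w1) (u ⊗ₜ w1) = 0 := by rw [h.pol, h.hg.alt, mul_zero]
    have h1 := root_mem_Ts h.hO (h.Qp u1 w1) (h.Qp u w1) hp hT (u := u ⊗ₜ w) (by
      rw [T_apply_root (h.Qp u1 w1) (h.Qp u w1) hp, h.pol, h.pol, hu1', h.hf.alt, zero_mul,
        zero_smul, zero_smul, add_zero, sub_zero]) hz
    rw [h.pol, h.pol, hu1, h.hf.comm_zero hu0, one_mul, zero_mul, zero_smul, sub_zero] at h1
    exact (Submodule.smul_mem_iff _ hw1).1 h1
  obtain ⟨w1, hw1, hw1'⟩ : ∃ w1, g w1 w ≠ 0 ∧ w1 ∉ Submodule.span F {w} := by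
    obtain ⟨w1, hw1⟩ := h.hg.exists_ne' hw
    refine ⟨w1, by rw [hw1]; exact one_ne_zero, ?_⟩
    intro hmem
    obtain ⟨c, rfl⟩ := Submodule.mem_span_singleton.1 hmem
    rw [map_smul, LinearMap.smul_apply, h.hg.alt, smul_zero] at hw1
    exact zero_ne_one hw1
  exact h.beta_of hu hw hw1' (key w1 hw1)

/-- A root element `(u ⊗ w, u' ⊗ w')` with `u ⊥ u'`, `w ⊥ w'` gives `Beta`. -/
theorem Hy.beta_of_alpha (h : Hy f g Q M) (hdU : 3 ≤ Module.finrank F U) {u u' : U} {w w' : W} (hu : u ≠ 0) (hw : w ≠ 0)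
    (hu' : u' ∉ Submodule.span F {u}) (hw' : w' ∉ Submodule.span F {w})
    (hx : u' ⊗ₜ w' ∈ Ts Q M (u ⊗ₜ w)) : Beta g Q M :=
  h.beta_of_gamma hdU hu hw hu' (h.spreadW hw' hx (h.hg.alt w))

end Cfsg.Agent.H887.TenSp
end

-- part: H887/TenSp/Extract
section
/-!
`M` as in `Hy`, `L` a maximal totally isotropic subspace of `W`, `s ∈ M` the identity on `U ⊗ L`.
Then `s = 1 ⊗ (1 + ν)`, or `M` contains all root elements `Beta`.
-/

set_option autoImplicit false
set_option linter.unusedSectionVars false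

namespace Cfsg.Agent.H887.TenSp

open TensorProduct QuadraticMap Cfsg.Agent.LieClassical.OrthCore
  Cfsg.Agent.LieClassical.OrthTrans Cfsg.Agent.ClassicalGeometry.OrthAutBasic
  Cfsg.Agent.H887.SiegelMethod

variable {F U W : Type*} [Field F] [AddCommGroup U] [Module F U] [AddCommGroup W] [Module F W]
  [FiniteDimensional F U] [FiniteDimensional F W]
  {f : LinearMap.BilinForm F U} {g : LinearMap.BilinForm F W}
  {Q : QuadraticForm F (U ⊗[F] W)} {M : Subgroup ((U ⊗[F] W) ≃ₗ[F] (U ⊗[F] W))}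

/-! ### Linear algebra -/

theorem Alt.indep_zero (hf : Alt f) {x x' : U} {y y' : W} (hx : x ∉ Submodule.span F {x'})
    (hx' : x' ≠ 0) (h : x ⊗ₜ[F] y + x' ⊗ₜ y' = 0) : y = 0 ∧ y' = 0 := by
  obtain ⟨u, hu, hu'⟩ := hf.sep1 hx
  have h1 := congrArg (kU f W u) h
  rw [map_add, kU_tmul, kU_tmul, hu, hu', one_smul, zero_smul, add_zero, map_zero] at h1
  refine ⟨h1, ?_⟩
  rw [h1, TensorProduct.tmul_zero, zero_add] at h
  exact hf.tmul_eq_zero hx' h

theorem not_mem_symm {x x' : U} (hx : x ∉ Submodule.span F {x'}) (hx0 : x' ≠ 0) :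
    x' ∉ Submodule.span F {x} := by
  intro h
  obtain ⟨c, hc⟩ := Submodule.mem_span_singleton.1 h
  have hc0 : c ≠ 0 := by
    rintro rfl
    rw [zero_smul] at hc
    exact hx0 hc.symm
  apply hx
  refine Submodule.mem_span_singleton.2 ⟨c⁻¹, ?_⟩
  rw [← hc, smul_smul, inv_mul_cancel₀ hc0, one_smul]

theorem ne_of_not_mem {x x' : U} (hx : x ∉ Submodule.span F {x'}) : x ≠ 0 := by
  rintro rfl
  exact hx (Submodule.zero_mem _)

/-- If all vectors are mapped to multiples of themselves and a nonzero vector is killed, the map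
is zero. -/
theorem eq_zero_of_scalar {h : Module.End F W} (hs : ∀ w, h w ∈ Submodule.span F {w}) {x : W}
    (hx : x ≠ 0) (hx0 : h x = 0) : h = 0 := by
  ext w
  rw [LinearMap.zero_apply]
  by_cases hw : w ∈ Submodule.span F {x}
  · obtain ⟨c, rfl⟩ := Submodule.mem_span_singleton.1 hw
    rw [map_smul, hx0, smul_zero]
  · obtain ⟨c, hc⟩ := Submodule.mem_span_singleton.1 (hs w)
    obtain ⟨d, hd⟩ := Submodule.mem_span_singleton.1 (hs (w + x))
    rw [map_add, hx0, add_zero, ← hc, smul_add] at hd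
    have h1 : d • x = (c - d) • w := by
      rw [sub_smul, ← hd]
      abel
    by_cases hcd : c - d = 0
    · rw [hcd, zero_smul] at h1
      have hd0 : d = 0 := (smul_eq_zero.1 h1).resolve_right hx
      rw [hd0, sub_zero] at hcd
      rw [← hc, hcd, zero_smul]
    · exfalso
      apply hw
      refine Submodule.mem_span_singleton.2 ⟨(c - d)⁻¹ * d, ?_⟩
      rw [mul_smul, h1, smul_smul, inv_mul_cancel₀ hcd, one_smul]

/-- Vectors orthogonal to `x` outside `⟨x⟩` span `x^⊥`. -/
theorem Alt.mem_span_of_perp (hf : Alt f) (hd : 3 ≤ Module.finrank F U) {x y : U}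
    (h : ∀ t, f t x = 0 → t ∉ Submodule.span F {x} → f t y = 0) : y ∈ Submodule.span F {x} := by
  by_cases hx : x = 0
  · -- then `f t y = 0` for all `t ≠ 0`
    have hy : y = 0 := by
      apply hf.nd' y fun t => ?_
      by_cases ht : t = 0
      · rw [ht, map_zero, LinearMap.zero_apply]
      · refine h t (by rw [hx, map_zero]) ?_
        rw [hx]
        intro hmem
        obtain ⟨c, hc⟩ := Submodule.mem_span_singleton.1 hmem
        rw [smul_zero] at hc
        exact ht hc.symm
    rw [hy]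
    exact Submodule.zero_mem _
  · by_contra hy
    obtain ⟨t, ht, ht'⟩ := hf.sep1 hy
    by_cases hts : t ∈ Submodule.span F {x}
    · -- add a vector of `x^⊥` outside `⟨x⟩`
      obtain ⟨s, hs, hs'⟩ : ∃ s, f s x = 0 ∧ s ∉ Submodule.span F {x} := by
        by_contra hcon
        push Not at hcon
        have h1 : perp f (Submodule.span F {x}) ≤ Submodule.span F {x} := fun z hz =>
          hcon z (hf.comm_zero (hz x (Submodule.mem_span_singleton_self x)))
        have h2 := Submodule.finrank_mono h1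
        have h3 := hf.finrank_perp (Submodule.span F {x})
        have h4 := finrank_span_singleton (K := F) hx
        omega
      have h1 := h s hs hs'
      have h2 := h (s + t) (by rw [map_add, LinearMap.add_apply, hs, ht', add_zero]) (by
        intro hmem
        apply hs'
        have := Submodule.sub_mem _ hmem hts
        rwa [add_sub_cancel_right] at this)
      rw [map_add, LinearMap.add_apply, h1, ht, zero_add] at h2
      exact one_ne_zero h2
    · rw [h t ht' hts] at ht
      exact zero_ne_one ht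

/-- If `n (z ⊗ t) ∈ z ⊗ W` for all `z, t` then `n = 1 ⊗ ν`. -/
theorem Alt.eq_map_one (hf : Alt f) (hU0 : ∃ u : U, u ≠ 0) {n : Module.End F (U ⊗[F] W)}
    (h : ∀ z t u, f u z = 0 → kU f W u (n (z ⊗ₜ t)) = 0) :
    ∃ ν : Module.End F W, n = TensorProduct.map 1 ν := by
  obtain ⟨z0, hz0⟩ := hU0
  obtain ⟨u0, hu0⟩ := hf.exists_ne' hz0
  have hs : ∀ z t, ∃ s, n (z ⊗ₜ t) = z ⊗ₜ s := fun z t =>
    exists_tmul_of_kU hf fun u hu => h z t u hu
  let ν : Module.End F W := kU f W u0 ∘ₗ n ∘ₗ TensorProduct.mk F U W z0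
  have hν : ∀ t, n (z0 ⊗ₜ t) = z0 ⊗ₜ ν t := by
    intro t
    obtain ⟨s, hs⟩ := hs z0 t
    have : ν t = kU f W u0 (n (z0 ⊗ₜ t)) := rfl
    rw [this, hs, kU_tmul, hu0, one_smul]
  refine ⟨ν, ?_⟩
  apply TensorProduct.ext'
  intro z t
  rw [map_tmul, Module.End.one_apply]
  by_cases hz : z ∈ Submodule.span F {z0}
  · obtain ⟨c, rfl⟩ := Submodule.mem_span_singleton.1 hz
    rw [← TensorProduct.smul_tmul', map_smul, hν, TensorProduct.smul_tmul']
  · obtain ⟨s, hs1⟩ := hs z t
    obtain ⟨s', hs2⟩ := hs (z + z0) t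
    have h1 : z ⊗ₜ[F] (s' - s) + z0 ⊗ₜ (s' - ν t) = 0 := by
      have h2 : n ((z + z0) ⊗ₜ t) = z ⊗ₜ s + z0 ⊗ₜ ν t := by
        rw [TensorProduct.add_tmul, map_add, hs1, hν]
      rw [hs2, TensorProduct.add_tmul] at h2
      rw [TensorProduct.tmul_sub, TensorProduct.tmul_sub]
      have h3 : z ⊗ₜ[F] s' - z ⊗ₜ s + (z0 ⊗ₜ s' - z0 ⊗ₜ ν t) =
        (z ⊗ₜ[F] s' + z0 ⊗ₜ s') - (z ⊗ₜ s + z0 ⊗ₜ ν t) := by abel
      rw [h3, h2, sub_self]
    obtain ⟨e1, e2⟩ := hf.indep_zero hz hz0 h1
    rw [hs1, ← sub_eq_zero.1 e1, sub_eq_zero.1 e2]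

/-! ### Commutator of two quadratic elements -/

theorem In.comm4 {V : Type*} [AddCommGroup V] [Module F V] {M : Subgroup (V ≃ₗ[F] V)}
    {n n' : Module.End F V} (h : In M n) (h' : In M n') (e : n * n = 0) (e' : n' * n' = 0)
    (e1 : n * n' * n = 0) (e2 : n' * n * n' = 0) : In M (n * n' - n' * n) := by
  have h1 := (h.mul h').mul ((h.neg e).mul (h'.neg e'))
  refine h1.congr ?_
  have h2 : n + n' + n * n' + (-n + -n' + -n * -n') + (n + n' + n * n') * (-n + -n' + -n * -n') =
      n * n' - n' * n - n * n - n' * n' + (n * n) * n' + n' * n * n' - n * n' * n -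
        n * (n' * n') + n * (n' * n * n') := by noncomm_ring
  rw [h2, e, e', e1, e2]
  simp

/-! ### The matrix coefficients of `n` -/

/-- `t ↦ kU u (n (v ⊗ t))`. -/
noncomputable def co (f : LinearMap.BilinForm F U) (n : Module.End F (U ⊗[F] W)) (u v : U) :
    Module.End F W := kU f W u ∘ₗ n ∘ₗ TensorProduct.mk F U W v

theorem co_apply (n : Module.End F (U ⊗[F] W)) (u v : U) (t : W) :
    co f n u v t = kU f W u (n (v ⊗ₜ t)) := rfl

theorem co_smul_left (n : Module.End F (U ⊗[F] W)) (c : F) (u v : U) :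
    co f n (c • u) v = c • co f n u v := by
  ext t
  rw [co_apply, kU_smul]
  rfl

theorem NnN (n : Module.End F (U ⊗[F] W)) (u v x y : U) :
    (TensorProduct.map (E1 f u v) 1 : Module.End F (U ⊗[F] W)) * n *
      (TensorProduct.map (E1 f x y) 1 : Module.End F (U ⊗[F] W)) =
      TensorProduct.map (E1 f u y) (co f n v x) := by
  apply TensorProduct.ext'
  intro z t
  rw [Module.End.mul_apply, Module.End.mul_apply, map_tmul, map_tmul, E1_apply,
    Module.End.one_apply, map_E1_left, Module.End.one_apply, ← TensorProduct.smul_tmul',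
    map_smul, map_smul, E1_apply, co_apply, TensorProduct.smul_tmul]

/-- The data of the extraction step. -/
structure Ext (f : LinearMap.BilinForm F U) (g : LinearMap.BilinForm F W)
    (Q : QuadraticForm F (U ⊗[F] W)) (M : Subgroup ((U ⊗[F] W) ≃ₗ[F] (U ⊗[F] W)))
    (L : Submodule F W) (n : Module.End F (U ⊗[F] W)) : Prop where
  inM : In M n
  nil : Nil (UL U L) n

theorem UL_map (S : Module.End F U) (L : Submodule F W) :
    ∀ v ∈ UL U L, TensorProduct.map S (1 : Module.End F W) v ∈ UL U L := by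
  intro v hv
  have h1 : UL U L ≤ (UL U L).comap (TensorProduct.map S (1 : Module.End F W)) := by
    refine Submodule.span_le.2 ?_
    rintro _ ⟨z, t, ht, rfl⟩
    exact tmul_mem_UL _ ht
  exact h1 hv

theorem UL_smul_map (c : F) (S : Module.End F U) (L : Submodule F W) :
    ∀ v ∈ UL U L, (c • TensorProduct.map S (1 : Module.End F W)) v ∈ UL U L := fun v hv =>
  Submodule.smul_mem _ _ (UL_map S L v hv)

/-- For singular image the skew symmetry. -/
theorem Hy.skew (h : Hy f g Q M) {n : Module.End F (U ⊗[F] W)} (hn : In M n)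
    (h0 : ∀ v v', polar Q (n v) (n v') = 0) (v v' : U ⊗[F] W) :
    polar Q v (n v') = - polar Q v' (n v) := by
  obtain ⟨s, hs, hs'⟩ := hn
  have h1 := polar_map (h.hO hs) v v'
  rw [hs', hs', polar_add_left, polar_add_right, polar_add_right, h0, add_zero] at h1
  have h2 : polar Q v (n v') + polar Q (n v) v' = 0 := by
    have h3 : polar Q v v' + polar Q v (n v') + polar Q (n v) v' = polar Q v v' := h1
    rw [add_assoc] at h3
    exact left_eq_add.1 h3.symm
  rw [polar_comm Q v' (n v)]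
  exact eq_neg_of_add_eq_zero_left h2

theorem Sp2.polar_UL (h : Sp2 f g Q) {L : Submodule F W} (hL : perp g L = L)
    {v v' : U ⊗[F] W} (hv : v ∈ UL U L) (hv' : v' ∈ UL U L) : polar Q v v' = 0 := by
  have h1 : UL U L ≤ LinearMap.ker (polarBilin Q v') := by
    refine Submodule.span_le.2 ?_
    rintro _ ⟨z, t, ht, rfl⟩
    show polar Q v' (z ⊗ₜ t) = 0
    rw [polar_comm, h.polW]
    rw [mem_UL_iff h.hg, hL] at hv'
    rw [hv' t ht, map_zero]
  have h2 : polar Q v' v = 0 := h1 hv
  rw [polar_comm]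
  exact h2

theorem Hy.co_adj (h : Hy f g Q M) {L : Submodule F W} (hL : perp g L = L)
    {n : Module.End F (U ⊗[F] W)} (hn : In M n) (hN : Nil (UL U L) n) (u v : U) (s t : W) :
    g s (co f n u v t) = g (co f n v u s) t := by
  have h1 := h.skew hn (fun v v' => h.polar_UL hL (hN.im v) (hN.im v')) (u ⊗ₜ s) (v ⊗ₜ t)
  rw [h.polU, h.polU] at h1
  rw [co_apply, h1, co_apply, ← h.hg.neg]

/-- The subspace `⟨u, v⟩^⊥ ⊗ W`. -/
noncomputable def Auv (f : LinearMap.BilinForm F U) (W : Type*) [AddCommGroup W] [Module F W]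
    (u v : U) : Submodule F (U ⊗[F] W) :=
  LinearMap.ker (kU f W u) ⊓ LinearMap.ker (kU f W v)

theorem mem_Auv {u v : U} {x : U ⊗[F] W} :
    x ∈ Auv f W u v ↔ kU f W u x = 0 ∧ kU f W v x = 0 := Iff.rfl

theorem Auv_map (u v : U) (R : Module.End F W) :
    ∀ x ∈ Auv f W u v, TensorProduct.map (1 : Module.End F U) R x ∈ Auv f W u v := by
  intro x hx
  rw [mem_Auv] at hx ⊢
  rw [kU_map, kU_map, hx.1, hx.2, map_zero]
  exact ⟨rfl, rfl⟩

theorem Auv_smul_map (c : F) (u v : U) (R : Module.End F W) :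
    ∀ x ∈ Auv f W u v, (c • TensorProduct.map (1 : Module.End F U) R) x ∈ Auv f W u v :=
  fun x hx => Submodule.smul_mem _ _ (Auv_map u v R x hx)

theorem Alt.nil_Auv (hf : Alt f) {u v : U} (huv : f u v = 0) (R : Module.End F W) :
    Nil (Auv f W u v) (TensorProduct.map (E1 f u v) R) where
  im := fun x => by
    rw [map_E1_left, mem_Auv, kU_tmul, kU_tmul, hf.alt, hf.comm_zero huv, zero_smul]
    exact ⟨rfl, rfl⟩
  ker := fun x hx => by
    rw [map_E1_left, hx.2, map_zero, TensorProduct.tmul_zero]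

theorem Alt.nil_Auv' (hf : Alt f) {u v : U} (huv : f u v = 0) (R : Module.End F W) :
    Nil (Auv f W u v) (TensorProduct.map (E1 f v u) R) where
  im := fun x => by
    rw [map_E1_left, mem_Auv, kU_tmul, kU_tmul, hf.alt, huv, zero_smul]
    exact ⟨rfl, rfl⟩
  ker := fun x hx => by
    rw [map_E1_left, hx.1, map_zero, TensorProduct.tmul_zero]

end Cfsg.Agent.H887.TenSp
end

-- part: H887/TenSp/ExtractFour
section
/-!
The extraction of root elements, `dim U ≥ 3`.
-/

set_option autoImplicit false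
set_option linter.unusedSectionVars false
set_option linter.unusedSimpArgs false

namespace Cfsg.Agent.H887.TenSp

open TensorProduct QuadraticMap Cfsg.Agent.LieClassical.OrthCore
  Cfsg.Agent.LieClassical.OrthTrans Cfsg.Agent.ClassicalGeometry.OrthAutBasic
  Cfsg.Agent.H887.SiegelMethod

variable {F U W : Type*} [Field F] [AddCommGroup U] [Module F U] [AddCommGroup W] [Module F W]
  [FiniteDimensional F U] [FiniteDimensional F W]
  {f : LinearMap.BilinForm F U} {g : LinearMap.BilinForm F W}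
  {Q : QuadraticForm F (U ⊗[F] W)} {M : Subgroup ((U ⊗[F] W) ≃ₗ[F] (U ⊗[F] W))}

theorem Hy.hU1 (h : Hy f g Q M) (u : U) : In M (TensorProduct.map (E1 f u u) 1) := by
  have := h.hU u 1
  rwa [one_smul] at this

theorem Hy.hW1 (h : Hy f g Q M) (w : W) : In M (TensorProduct.map 1 (E1 g w w)) := by
  have := h.hW w 1
  rwa [one_smul] at this

theorem NU1_sq (hf : Alt f) (u : U) :
    (TensorProduct.map (E1 f u u) (1 : Module.End F W)) *
      (TensorProduct.map (E1 f u u) (1 : Module.End F W)) = 0 := by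
  have := NU_sq (W := W) hf u 1
  rwa [one_smul] at this

theorem NW1_sq (hg : Alt g) (w : W) :
    (TensorProduct.map (1 : Module.End F U) (E1 g w w)) *
      (TensorProduct.map (1 : Module.End F U) (E1 g w w)) = 0 := by
  have := NW_sq (U := U) hg w 1
  rwa [one_smul] at this

theorem NU_mul_zero {u v : U} (huv : f u v = 0) (c d : F) :
    (c • TensorProduct.map (E1 f u u) (1 : Module.End F W)) *
      (d • TensorProduct.map (E1 f v v) (1 : Module.End F W)) = 0 := by
  rw [smul_mul_smul_comm, map_mul', E1_mul, huv, zero_smul, TensorProduct.map_zero_left, smul_zero]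

theorem NW_mul_zero {u v : W} (huv : g u v = 0) (c d : F) :
    (c • TensorProduct.map (1 : Module.End F U) (E1 g u u)) *
      (d • TensorProduct.map (1 : Module.End F U) (E1 g v v)) = 0 := by
  rw [smul_mul_smul_comm, map_mul', E1_mul, huv, zero_smul, TensorProduct.map_zero_right,
    smul_zero]

/-- First double commutator. -/
theorem Hy.ext_pair (h : Hy f g Q M) {L : Submodule F W}
    {n : Module.End F (U ⊗[F] W)} (hn : In M n) (hN : Nil (UL U L) n) {u v : U} (huv : f u v = 0)
    (c : F) : In M (c • (TensorProduct.map (E1 f u v) (co f n u v) +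
      TensorProduct.map (E1 f v u) (co f n v u))) := by
  have h1 := hn.comm2 hN (h.hU v (-c)) (NU_sq h.hf v (-c)) (UL_smul_map _ _ L)
    (h.hU u 1) (NU_sq h.hf u 1) (UL_smul_map _ _ L) (NU_mul_zero (h.hf.comm_zero huv) _ _)
    (NU_mul_zero huv _ _)
  refine h1.congr ?_
  rw [one_smul, mul_smul_comm, smul_mul_assoc, smul_mul_assoc, NnN, NnN]
  module

theorem E1_conj (a b x y : W) (m : Module.End F W) :
    E1 g a b * m * E1 g x y = g b (m x) • E1 g a y := by
  ext z
  simp [smul_smul, mul_comm]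

/-- Second double commutator. -/
theorem Hy.ext_root (h : Hy f g Q M) {u v : U} (huv : f u v = 0) {m m' : Module.End F W}
    (hm : ∀ s t, g s (m t) = g (m' s) t)
    (hn : In M (TensorProduct.map (E1 f u v) m + TensorProduct.map (E1 f v u) m'))
    {w t : W} (hwt : g w t = 0) (c : F) :
    In M (c • (TensorProduct.map (E1 f u v) (g t (m w) • E1 g t w + g w (m t) • E1 g w t) +
      TensorProduct.map (E1 f v u) (-(g w (m t) • E1 g t w + g t (m w) • E1 g w t)))) := by
  have hN : Nil (Auv f W u v)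
      (TensorProduct.map (E1 f u v) m + TensorProduct.map (E1 f v u) m') :=
    (h.hf.nil_Auv huv m).add (h.hf.nil_Auv' huv m')
  have h1 := hn.comm2 hN (h.hW w (-c)) (NW_sq h.hg w (-c)) (Auv_smul_map _ _ _ _)
    (h.hW t 1) (NW_sq h.hg t 1) (Auv_smul_map _ _ _ _) (NW_mul_zero hwt _ _)
    (NW_mul_zero (h.hg.comm_zero hwt) _ _)
  refine h1.congr ?_
  have e1 : g t (m' w) = - g w (m t) := by rw [h.hg.neg t, ← hm]
  have e2 : g w (m' t) = - g t (m w) := by rw [h.hg.neg w, ← hm]
  simp only [one_smul, mul_smul_comm, smul_mul_assoc, mul_add, add_mul, map_mul', mul_one,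
    one_mul, E1_conj, e1, e2]
  simp only [TensorProduct.map_add_right, TensorProduct.map_smul_right]
  rw [show -(g w (m t) • E1 g t w + g t (m w) • E1 g w t) =
    (-g w (m t)) • E1 g t w + (-g t (m w)) • E1 g w t by module]
  simp only [TensorProduct.map_add_right, TensorProduct.map_smul_right]
  module

theorem smul_sub_end {V : Type*} [AddCommGroup V] [Module F V] (c : F) (a b : Module.End F V) :
    c • a - c • b = c • (a - b) := by
  module

theorem map_subL (S S' : Module.End F U) (R : Module.End F W) :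
    TensorProduct.map (S - S') R = TensorProduct.map S R - TensorProduct.map S' R := by
  rw [sub_eq_add_neg, TensorProduct.map_add_left, ← neg_one_smul F, TensorProduct.map_smul_left]
  module

theorem map_subR (S : Module.End F U) (R R' : Module.End F W) :
    TensorProduct.map S (R - R') = TensorProduct.map S R - TensorProduct.map S R' := by
  rw [sub_eq_add_neg, TensorProduct.map_add_right, ← neg_one_smul F, TensorProduct.map_smul_right]
  module

theorem smul_comm_id {V : Type*} [AddCommGroup V] [Module F V] (r n : Module.End F V) (c : F) :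
    r * (c • n) - (c • n) * r - r * (c • n) * r = c • (r * n - n * r - r * n * r) := by
  simp only [mul_smul_comm, smul_mul_assoc, smul_sub]

theorem map_one_comm (r X : Module.End F W) (S : Module.End F U) :
    (TensorProduct.map (1 : Module.End F U) r * TensorProduct.map S X -
      TensorProduct.map S X * TensorProduct.map 1 r -
      TensorProduct.map 1 r * TensorProduct.map S X * TensorProduct.map 1 r :
      Module.End F (U ⊗[F] W)) = TensorProduct.map S (r * X - X * r - r * X * r) := by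
  simp only [map_mul', mul_one, one_mul]
  rw [map_subR, map_subR]

theorem map_one_comm' (r X : Module.End F U) (S : Module.End F W) :
    (TensorProduct.map r (1 : Module.End F W) * TensorProduct.map X S -
      TensorProduct.map X S * TensorProduct.map r 1 -
      TensorProduct.map r 1 * TensorProduct.map X S * TensorProduct.map r 1 :
      Module.End F (U ⊗[F] W)) = TensorProduct.map (r * X - X * r - r * X * r) S := by
  simp only [map_mul', mul_one, one_mul]
  rw [map_subL, map_subL]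

theorem short_sq (hg : Alt g) {w s : W} (hsw : g s w = 0) :
    (E1 g w s + E1 g s w) * (E1 g w s + E1 g s w) = 0 := by
  have hws := hg.comm_zero hsw
  simp [add_mul, mul_add, E1_mul, hsw, hws, hg.alt]

/-- Root elements from `In`. -/
theorem Hy.mem_Ts_of_In (h : Hy f g Q M) {x x' : U} {y y' : W} (hp : f x x' * g y y' = 0) {p : F}
    (hp0 : p ≠ 0) (hI : ∀ c : F, In M (c • (p • rt Q (x ⊗ₜ[F] y) (x' ⊗ₜ y')))) :
    x' ⊗ₜ y' ∈ Ts Q M (x ⊗ₜ y) := by
  refine TenSp.mem_Ts_of_In (h.Qp x y) (h.Qp x' y') (by rw [h.pol, hp]) fun c => ?_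
  have := hI (c * p⁻¹)
  rwa [smul_smul, mul_assoc, inv_mul_cancel₀ hp0, mul_one] at this

/-- The case `p + q ≠ 0`. -/
theorem Hy.gamma_case (h : Hy f g Q M) {u v : U} (huv : f u v = 0) {w t : W} (hwt : g w t = 0)
    (ht : t ∉ Submodule.span F {w}) {p q : F} (hpq : p + q ≠ 0)
    (hn : ∀ c : F, In M (c • (TensorProduct.map (E1 f u v) (p • E1 g t w + q • E1 g w t) +
      TensorProduct.map (E1 f v u) (-(q • E1 g t w + p • E1 g w t))))) :
    u ⊗ₜ w ∈ Ts Q M (v ⊗ₜ w) := by
  obtain ⟨s, hst, hsw⟩ := h.hg.sep1 ht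
  have hws := h.hg.comm_zero hsw
  have htw := h.hg.comm_zero hwt
  have hts : g t s = -1 := by rw [h.hg.neg, hst]
  refine h.mem_Ts_of_In (by rw [h.hg.alt, mul_zero]) hpq fun c => ?_
  have hN : Nil (Auv f W u v)
      (c • (TensorProduct.map (E1 f u v) (p • E1 g t w + q • E1 g w t) +
      TensorProduct.map (E1 f v u) (-(q • E1 g t w + p • E1 g w t)))) :=
    ((h.hf.nil_Auv huv _).add (h.hf.nil_Auv' huv _)).smul c
  have h1 := h.shortW hws 1
  rw [one_smul] at h1
  have h2 := (hn c).comm hN h1 (by rw [map_mul', short_sq h.hg hsw,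
    TensorProduct.map_zero_right]) (Auv_map _ _ _)
  refine h2.congr ?_
  have e1 : (E1 g w s + E1 g s w) * (p • E1 g t w + q • E1 g w t) -
      (p • E1 g t w + q • E1 g w t) * (E1 g w s + E1 g s w) -
      (E1 g w s + E1 g s w) * (p • E1 g t w + q • E1 g w t) * (E1 g w s + E1 g s w) =
      (p + q) • E1 g w w := by
    simp only [add_mul, mul_add, smul_mul_assoc, mul_smul_comm, E1_mul, hsw, hws, htw, hwt, hst,
      hts, h.hg.alt, zero_smul, smul_zero, one_smul, add_zero, zero_add, sub_zero, mul_zero,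
      zero_mul, smul_smul, neg_smul, mul_neg, mul_one]
    module
  have e2 : (E1 g w s + E1 g s w) * (-(q • E1 g t w + p • E1 g w t)) -
      (-(q • E1 g t w + p • E1 g w t)) * (E1 g w s + E1 g s w) -
      (E1 g w s + E1 g s w) * (-(q • E1 g t w + p • E1 g w t)) * (E1 g w s + E1 g s w) =
      (-(p + q)) • E1 g w w := by
    simp only [add_mul, mul_add, smul_mul_assoc, mul_smul_comm, E1_mul, hsw, hws, htw, hwt, hst,
      hts, h.hg.alt, zero_smul, smul_zero, one_smul, add_zero, zero_add, sub_zero, mul_zero,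
      zero_mul, smul_smul, neg_smul, mul_neg, mul_one, neg_mul, neg_zero]
    module
  rw [smul_comm_id, mul_add, add_mul, add_mul]
  have e3 : ∀ a b c d x y : Module.End F (U ⊗[F] W),
      a + b - (c + d) - (x + y) = (a - c - x) + (b - d - y) := by
    intro a b c d x y
    abel
  rw [e3, map_one_comm, map_one_comm, e1, e2, h.rt_eq, TensorProduct.map_smul_right,
    TensorProduct.map_smul_right]
  module

/-- The case `q = - p` in odd characteristic. -/
theorem Hy.beta_case (h : Hy f g Q M) (h2 : (2 : F) ≠ 0) {u v : U} (huv : f u v = 0)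
    (hu : v ∉ Submodule.span F {u}) {w t : W}
    (hn : ∀ c : F, In M (c • TensorProduct.map (E1 f u v + E1 f v u) (E1 g t w - E1 g w t))) :
    u ⊗ₜ t ∈ Ts Q M (u ⊗ₜ w) := by
  obtain ⟨s, hsv, hsu⟩ := h.hf.sep1 hu
  have hus := h.hf.comm_zero hsu
  have hvu := h.hf.comm_zero huv
  have hvs : f v s = -1 := by rw [h.hf.neg, hsv]
  refine h.mem_Ts_of_In (by rw [h.hf.alt, zero_mul]) h2 fun c => ?_
  have hN : Nil (Auv f W u v)
      (c • TensorProduct.map (E1 f u v + E1 f v u) (E1 g t w - E1 g w t)) := by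
    rw [TensorProduct.map_add_left]
    exact ((h.hf.nil_Auv huv _).add (h.hf.nil_Auv' huv _)).smul c
  have h1 := h.shortU hus 1
  rw [one_smul] at h1
  have h3 := (hn c).comm hN h1 (by rw [map_mul', short_sq h.hf hsu,
    TensorProduct.map_zero_left]) (by
      intro x hx
      rw [mem_Auv] at hx ⊢
      rw [TensorProduct.map_add_left, LinearMap.add_apply, map_E1_left, map_E1_left, map_add,
        map_add, kU_tmul, kU_tmul, kU_tmul, kU_tmul, hx.1, map_zero, h.hf.alt, hvu, zero_smul,
        smul_zero, smul_zero, add_zero]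
      exact ⟨rfl, rfl⟩)
  refine h3.congr ?_
  have e1 : (E1 f u s + E1 f s u) * (E1 f u v + E1 f v u) -
      (E1 f u v + E1 f v u) * (E1 f u s + E1 f s u) -
      (E1 f u s + E1 f s u) * (E1 f u v + E1 f v u) * (E1 f u s + E1 f s u) =
      (2 : F) • E1 f u u := by
    simp only [add_mul, mul_add, smul_mul_assoc, mul_smul_comm, E1_mul, hsu, hus, hvu, huv, hsv,
      hvs, h.hf.alt, zero_smul, smul_zero, one_smul, add_zero, zero_add, sub_zero, mul_zero,
      zero_mul, smul_smul, neg_smul, mul_neg, mul_one]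
    module
  rw [smul_comm_id, map_one_comm', e1, h.rt_eq, TensorProduct.map_smul_left, map_subR]

/-! ### Characteristic 2 -/

/-- `1 + c (u ∧ v) ⊗ (w ∧ t) ∈ M` for all `c`. -/
def Del (f : LinearMap.BilinForm F U) (g : LinearMap.BilinForm F W)
    (M : Subgroup ((U ⊗[F] W) ≃ₗ[F] (U ⊗[F] W))) (u v : U) (w t : W) : Prop :=
  ∀ c : F, In M (c • TensorProduct.map (E1 f u v + E1 f v u) (E1 g w t + E1 g t w))

theorem Del.swapU {u v : U} {w t : W} (h : Del f g M u v w t) : Del f g M v u w t := by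
  intro c
  have := h c
  rwa [add_comm (E1 f u v)] at this

theorem Del.swapW {u v : U} {w t : W} (h : Del f g M u v w t) : Del f g M u v t w := by
  intro c
  have := h c
  rwa [add_comm (E1 g w t)] at this

theorem wedge_sq (hf : Alt f) {u v : U} (huv : f u v = 0) :
    (E1 f u v + E1 f v u) * (E1 f u v + E1 f v u) = 0 := short_sq hf (hf.comm_zero huv)

/-- Change `w`. -/
theorem Hy.del_W (h : Hy f g Q M) {u v : U} {w t : W} (huv : f u v = 0)
    (hw : w ∉ Submodule.span F {t}) (hD : Del f g M u v w t) {s : W} (hst : g s t = 0) :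
    Del f g M u v s t := by
  have key : ∀ s : W, g s t = 0 → g s w ≠ 0 → Del f g M u v s t := by
    intro s hst hsw c
    have hts := h.hg.comm_zero hst
    have hN : Nil (Auv f W u v)
        (TensorProduct.map (E1 f u v + E1 f v u) (E1 g w t + E1 g t w)) := by
      rw [TensorProduct.map_add_left]
      exact (h.hf.nil_Auv huv _).add (h.hf.nil_Auv' huv _)
    have h1 := hD (c * (g s w)⁻¹)
    have h2 := h1.comm (hN.smul _) (h.hW1 s) (NW1_sq h.hg s) (Auv_map _ _ _)
    refine h2.congr ?_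
    have e1 : E1 g s s * (E1 g w t + E1 g t w) - (E1 g w t + E1 g t w) * E1 g s s -
        E1 g s s * (E1 g w t + E1 g t w) * E1 g s s = g s w • (E1 g s t + E1 g t s) := by
      have hws : g w s = - g s w := h.hg.neg w s
      simp only [add_mul, mul_add, E1_mul, hst, hts, hws, zero_smul, add_zero, smul_mul_assoc,
        smul_zero, zero_add, sub_zero]
      module
    rw [smul_comm_id, map_one_comm, e1, TensorProduct.map_smul_right, smul_smul, mul_assoc,
      inv_mul_cancel₀ hsw, mul_one]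
  by_cases hsw : g s w = 0
  · obtain ⟨s0, h0, h0'⟩ := h.hg.sep1 hw
    have h1 := key (s + s0) (by rw [map_add, LinearMap.add_apply, hst, h0', add_zero])
      (by rw [map_add, LinearMap.add_apply, hsw, h0, zero_add]; exact one_ne_zero)
    have h2 := key s0 h0' (by rw [h0]; exact one_ne_zero)
    intro c
    have e0 : (TensorProduct.map (E1 f u v + E1 f v u) (E1 g s0 t + E1 g t s0) :
        Module.End F (U ⊗[F] W)) * TensorProduct.map (E1 f u v + E1 f v u)
          (E1 g s0 t + E1 g t s0) = 0 := by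
      rw [map_mul', wedge_sq h.hf huv, TensorProduct.map_zero_left]
    have e0' : (TensorProduct.map (E1 f u v + E1 f v u) (E1 g (s + s0) t + E1 g t (s + s0)) :
        Module.End F (U ⊗[F] W)) * TensorProduct.map (E1 f u v + E1 f v u)
          (E1 g s0 t + E1 g t s0) = 0 := by
      rw [map_mul', wedge_sq h.hf huv, TensorProduct.map_zero_left]
    have h3 := (h1 c).sub (h2 c) (by rw [smul_mul_smul_comm, e0, smul_zero])
      (by rw [smul_mul_smul_comm, e0', smul_zero])
    refine h3.congr ?_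
    rw [smul_sub_end, ← map_subR, E1_add_left, E1_add_right]
    congr 2
    abel
  · exact key s hst hsw

/-- Change `u`. -/
theorem Hy.del_U (h : Hy f g Q M) {u v : U} {w t : W} (hwt : g w t = 0)
    (hu : u ∉ Submodule.span F {v}) (hD : Del f g M u v w t) {s : U} (hst : f s v = 0) :
    Del f g M s v w t := by
  have key : ∀ s : U, f s v = 0 → f s u ≠ 0 → Del f g M s v w t := by
    intro s hst hsu c
    have hts := h.hf.comm_zero hst
    have h1 := hD (c * (f s u)⁻¹)
    -- the conjugate of `h1` by `1 + E1 s s ⊗ 1`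
    have h2 := h1.conj' (h.hU1 s) (NU1_sq h.hf s)
    have hsq : ∀ (X Y : Module.End F U) (a b : F),
        (a • TensorProduct.map X (E1 g w t + E1 g t w) : Module.End F (U ⊗[F] W)) *
        (b • TensorProduct.map Y (E1 g w t + E1 g t w)) = 0 := by
      intro X Y a b
      rw [smul_mul_smul_comm, map_mul', wedge_sq h.hg hwt, TensorProduct.map_zero_right, smul_zero]
    have hus : f u s = - f s u := h.hf.neg u s
    have e1 : (1 + E1 f s s) * (E1 f u v + E1 f v u) * (1 - E1 f s s) =
        (E1 f u v + E1 f v u) + f s u • (E1 f s v + E1 f v s) := by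
      simp only [add_mul, mul_add, mul_sub, one_mul, mul_one, E1_mul, hst, hts, hus, zero_smul,
        add_zero, smul_mul_assoc, smul_zero, zero_add, sub_zero]
      module
    have e2 : (1 + TensorProduct.map (E1 f s s) 1) *
        ((c * (f s u)⁻¹) • TensorProduct.map (E1 f u v + E1 f v u) (E1 g w t + E1 g t w)) *
        (1 - TensorProduct.map (E1 f s s) (1 : Module.End F W)) =
        (c * (f s u)⁻¹) • TensorProduct.map ((E1 f u v + E1 f v u) +
          f s u • (E1 f s v + E1 f v s)) (E1 g w t + E1 g t w) := by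
      rw [← e1]
      have e3 : (1 : Module.End F (U ⊗[F] W)) = TensorProduct.map 1 1 :=
        TensorProduct.map_one.symm
      rw [e3, ← TensorProduct.map_add_left, ← map_subL, mul_smul_comm, smul_mul_assoc, map_mul',
        map_mul', one_mul, mul_one]
    rw [e2] at h2
    have h3 := h2.sub h1 (hsq _ _ _ _) (hsq _ _ _ _)
    refine h3.congr ?_
    rw [smul_sub_end, ← map_subL, add_sub_cancel_left, TensorProduct.map_smul_left, smul_smul,
      mul_assoc, inv_mul_cancel₀ hsu, mul_one]
  by_cases hsu : f s u = 0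
  · obtain ⟨s0, h0, h0'⟩ := h.hf.sep1 hu
    have h1 := key (s + s0) (by rw [map_add, LinearMap.add_apply, hst, h0', add_zero])
      (by rw [map_add, LinearMap.add_apply, hsu, h0, zero_add]; exact one_ne_zero)
    have h2 := key s0 h0' (by rw [h0]; exact one_ne_zero)
    intro c
    have hsq : ∀ (X Y : Module.End F U) (a b : F),
        (a • TensorProduct.map X (E1 g w t + E1 g t w) : Module.End F (U ⊗[F] W)) *
        (b • TensorProduct.map Y (E1 g w t + E1 g t w)) = 0 := by
      intro X Y a b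
      rw [smul_mul_smul_comm, map_mul', wedge_sq h.hg hwt, TensorProduct.map_zero_right, smul_zero]
    have h3 := (h1 c).sub (h2 c) (hsq _ _ _ _) (hsq _ _ _ _)
    refine h3.congr ?_
    rw [smul_sub_end, ← map_subL, E1_add_left, E1_add_right]
    congr 2
    abel
  · exact key s hst hsu

/-- The case of characteristic 2. -/
theorem Hy.beta_of_del (h : Hy f g Q M) (hdW : 5 ≤ Module.finrank F W)
    {u v : U} {w t : W} (huv : f u v = 0) (hu : u ∉ Submodule.span F {v}) (hv : v ≠ 0)
    (hwt : g w t = 0) (hw : w ∉ Submodule.span F {t}) (ht : t ≠ 0) (hD : Del f g M u v w t) :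
    Beta g Q M := by
  -- `v'`
  obtain ⟨v', hv', hv'v⟩ := h.hf.sep1 hu
  have hD1 : Del f g M v' v w t := h.del_U hwt hu hD hv'v
  obtain ⟨y, hy1, hy2, hy3⟩ := h.hg.exists_perp_not_mem hdW w t
  have hD2 : Del f g M v' v y t := h.del_W hv'v hw hD1 hy2
  have hty : t ∉ Submodule.span F {y} := by
    intro hmem
    obtain ⟨c, hc⟩ := Submodule.mem_span_singleton.1 hmem
    have hc0 : c ≠ 0 := by rintro rfl; rw [zero_smul] at hc; exact ht hc.symm
    apply hy3
    have : y = c⁻¹ • t := by rw [← hc, smul_smul, inv_mul_cancel₀ hc0, one_smul]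
    rw [this]
    exact Submodule.smul_mem _ _ (Submodule.subset_span (by simp))
  have hwty : w ∉ Submodule.span F {t, y} := by
    intro hmem
    obtain ⟨a, b, hab⟩ := Submodule.mem_span_pair.1 hmem
    by_cases hb : b = 0
    · rw [hb, zero_smul, add_zero] at hab
      exact hw (Submodule.mem_span_singleton.2 ⟨a, hab⟩)
    · apply hy3
      refine Submodule.mem_span_pair.2 ⟨b⁻¹, -(b⁻¹ * a), ?_⟩
      rw [← hab, smul_add, smul_smul, smul_smul, inv_mul_cancel₀ hb]
      module
  obtain ⟨y', hy', hy't, hy'y⟩ := h.hg.sep2 hwty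
  have hD3 : Del f g M v' v y' y := h.del_W hv'v hty hD2.swapW hy'y
  have hyw : g w y = 0 := h.hg.comm_zero hy1
  have hyt : g t y = 0 := h.hg.comm_zero hy2
  have hty' : g t y' = 0 := h.hg.comm_zero hy't
  have hyy' : g y y' = 0 := h.hg.comm_zero hy'y
  have htw : g t w = 0 := h.hg.comm_zero hwt
  have hwy' : g w y' = -1 := by rw [h.hg.neg, hy']
  have hvu : f v u = 0 := h.hf.comm_zero huv
  have hvv' : f v v' = 0 := h.hf.comm_zero hv'v
  have huv' : f u v' = -1 := by rw [h.hf.neg, hv']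
  refine h.beta_of (u := v) (w := y) (w' := t) hv ?_ hty ?_
  · exact ne_of_not_mem (fun hmem => hy3 ((Submodule.span_mono (by simp)) hmem) :
      y ∉ Submodule.span F {w})
  refine h.mem_Ts_of_In (p := 1) (by rw [h.hf.alt, zero_mul]) one_ne_zero fun c => ?_
  rw [one_smul]
  have eS : (E1 f u v + E1 f v u) * (E1 f v' v + E1 f v v') = -E1 f v v := by
    simp only [add_mul, mul_add, E1_mul, huv, hvu, hvv', huv', h.hf.alt, zero_smul, add_zero,
      zero_add, neg_smul, one_smul]
  have eS' : (E1 f v' v + E1 f v v') * (E1 f u v + E1 f v u) = E1 f v v := by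
    simp only [add_mul, mul_add, E1_mul, huv, hvu, hvv', hv'v, hv', h.hf.alt, zero_smul, add_zero,
      zero_add, neg_smul, one_smul]
  have eR : (E1 g w t + E1 g t w) * (E1 g y' y + E1 g y y') = -E1 g t y := by
    simp only [add_mul, mul_add, E1_mul, hyw, hyt, hwy', hty', zero_smul, add_zero,
      zero_add, neg_smul, one_smul]
  have eR' : (E1 g y' y + E1 g y y') * (E1 g w t + E1 g t w) = E1 g y t := by
    simp only [add_mul, mul_add, E1_mul, hy1, hy2, hy', hy't, zero_smul, add_zero,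
      zero_add, neg_smul, one_smul]
  have eSS : E1 f v v * (E1 f u v + E1 f v u) = 0 := by
    simp only [mul_add, E1_mul, hvu, h.hf.alt, zero_smul, add_zero]
  have eSS' : E1 f v v * (E1 f v' v + E1 f v v') = 0 := by
    simp only [mul_add, E1_mul, hvv', h.hf.alt, zero_smul, add_zero]
  have h5 := (hD c).comm4 (hD3 1)
    (by rw [smul_mul_smul_comm, map_mul', wedge_sq h.hf huv, TensorProduct.map_zero_left,
      smul_zero])
    (by rw [smul_mul_smul_comm, map_mul', wedge_sq h.hf hv'v, TensorProduct.map_zero_left,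
      smul_zero])
    (by rw [smul_mul_smul_comm, map_mul', eS, smul_mul_smul_comm, map_mul', neg_mul, eSS,
      neg_zero, TensorProduct.map_zero_left, smul_zero])
    (by rw [smul_mul_smul_comm, map_mul', eS', smul_mul_smul_comm, map_mul', eSS',
      TensorProduct.map_zero_left, smul_zero])
  refine h5.congr ?_
  rw [smul_mul_smul_comm, smul_mul_smul_comm, map_mul', map_mul', eS, eR, eS', eR', h.rt_eq]
  have e1 : (TensorProduct.map (-E1 f v v) (-E1 g t y) : Module.End F (U ⊗[F] W)) =
      TensorProduct.map (E1 f v v) (E1 g t y) := by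
    rw [← neg_one_smul F (E1 f v v), ← neg_one_smul F (E1 g t y), TensorProduct.map_smul_left,
      TensorProduct.map_smul_right, smul_smul]
    norm_num
  rw [e1]
  module

/-! ### The main result of the section -/

theorem Alt.exists_perp1 (hf : Alt f) (hd : 3 ≤ Module.finrank F U) {x : U} (hx : x ≠ 0) :
    ∃ s, f s x = 0 ∧ s ∉ Submodule.span F {x} := by
  by_contra hcon
  push Not at hcon
  have h1 : perp f (Submodule.span F {x}) ≤ Submodule.span F {x} := fun z hz =>
    hcon z (hf.comm_zero (hz x (Submodule.mem_span_singleton_self x)))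
  have h2 := Submodule.finrank_mono h1
  have h3 := hf.finrank_perp (Submodule.span F {x})
  have h4 := finrank_span_singleton (K := F) hx
  omega

theorem Hy.ext_four (h : Hy f g Q M) (hdU : 3 ≤ Module.finrank F U)
    (hdW : 5 ≤ Module.finrank F W) (hb : ¬ Beta g Q M) {L : Submodule F W}
    (hL : perp g L = L) (hL0 : ∃ x ∈ L, x ≠ 0) {n : Module.End F (U ⊗[F] W)} (hn : In M n)
    (hN : Nil (UL U L) n) : ∃ ν : Module.End F W, n = TensorProduct.map 1 ν := by
  -- the claim for independent pairs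
  have claim : ∀ u v : U, f u v = 0 → u ∉ Submodule.span F {v} → co f n u v = 0 := by
    intro u v huv hu
    by_contra hm0
    have hv0 : v ≠ 0 := by
      rintro rfl
      apply hm0
      ext t
      rw [co_apply, TensorProduct.zero_tmul, map_zero, map_zero, LinearMap.zero_apply]
    obtain ⟨x, hxL, hx0⟩ := hL0
    have hmx : co f n u v x = 0 := by
      rw [co_apply, hN.ker _ (tmul_mem_UL v hxL), map_zero]
    obtain ⟨w, hw⟩ : ∃ w, co f n u v w ∉ Submodule.span F {w} := by
      by_contra hcon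
      push Not at hcon
      exact hm0 (eq_zero_of_scalar hcon hx0 hmx)
    have hw0 : w ≠ 0 := by
      rintro rfl
      rw [map_zero] at hw
      exact hw (Submodule.zero_mem _)
    obtain ⟨t, htw, ht, hp⟩ : ∃ t, g t w = 0 ∧ t ∉ Submodule.span F {w} ∧
        g t (co f n u v w) ≠ 0 := by
      by_contra hcon
      push Not at hcon
      exact hw (h.hg.mem_span_of_perp (by omega) hcon)
    have ht0 : t ≠ 0 := ne_of_not_mem ht
    have hwt := h.hg.comm_zero htw
    have h1 := h.ext_root huv (h.co_adj hL hn hN u v) (by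
      have := h.ext_pair hn hN huv 1
      rwa [one_smul] at this) hwt
    set p := g t (co f n u v w) with hpdef
    set q := g w (co f n u v t) with hqdef
    have hv' : v ∉ Submodule.span F {u} := not_mem_symm hu hv0
    by_cases hq : q = 0
    · apply hb
      refine h.beta_of_alpha hdU (u := v) (u' := u) (w := w) (w' := t) hv0 hw0 hu ht ?_
      refine h.mem_Ts_of_In (by rw [hwt, mul_zero]) hp fun c => ?_
      refine (h1 c).congr ?_
      rw [hq, h.rt_eq]
      simp only [zero_smul, add_zero, zero_add]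
      rw [← neg_smul, TensorProduct.map_smul_right, TensorProduct.map_smul_right]
      module
    by_cases hpq : p + q = 0
    · have hqp : q = -p := (neg_eq_of_add_eq_zero_right hpq).symm
      have h3 : ∀ c : F, In M (c • TensorProduct.map (E1 f u v + E1 f v u)
          (E1 g t w - E1 g w t)) := by
        intro c
        refine (h1 (c * p⁻¹)).congr ?_
        have e1 : p • E1 g t w + q • E1 g w t = p • (E1 g t w - E1 g w t) := by
          rw [hqp]; module
        have e2 : -(q • E1 g t w + p • E1 g w t) = p • (E1 g t w - E1 g w t) := by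
          rw [hqp]; module
        rw [e1, e2, TensorProduct.map_smul_right, TensorProduct.map_smul_right, ← smul_add,
          smul_smul, mul_assoc, inv_mul_cancel₀ hp, mul_one, TensorProduct.map_add_left]
      by_cases h2 : (2 : F) = 0
      · apply hb
        refine h.beta_of_del hdW huv hu hv0 hwt (not_mem_symm ht hw0) ht0 fun c => ?_
        refine (h3 c).congr ?_
        have e1 : E1 g t w - E1 g w t = E1 g w t + E1 g t w := by
          have : (2 : F) • E1 g w t = 0 := by rw [h2, zero_smul]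
          rw [two_smul] at this
          rw [← sub_eq_zero]
          have e2 : E1 g t w - E1 g w t - (E1 g w t + E1 g t w) = -(E1 g w t + E1 g w t) := by abel
          rw [e2, this, neg_zero]
        rw [e1]
      · apply hb
        have hu0 : u ≠ 0 := ne_of_not_mem hu
        exact h.beta_of hu0 hw0 ht (h.beta_case h2 huv hv' h3)
    · apply hb
      exact h.beta_of_gamma hdU hv0 hw0 hu (h.gamma_case huv hwt ht hpq h1)
  have hU0 : ∃ u : U, u ≠ 0 := by
    by_contra hcon
    push Not at hcon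
    have : Subsingleton U := ⟨fun a b => by rw [hcon a, hcon b]⟩
    have := Module.finrank_zero_of_subsingleton (R := F) (M := U)
    omega
  refine h.hf.eq_map_one hU0 ?_
  intro z t u hu
  by_cases huz : u ∈ Submodule.span F {z}
  · by_cases hz : z = 0
    · rw [hz, TensorProduct.zero_tmul, map_zero, map_zero]
    obtain ⟨s, hs, hs'⟩ := h.hf.exists_perp1 hdU hz
    have h1 := claim s z hs hs'
    have h2 := claim (u + s) z (by rw [map_add, LinearMap.add_apply, hu, hs, add_zero]) (by
      intro hmem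
      apply hs'
      have := Submodule.sub_mem _ hmem huz
      rwa [add_sub_cancel_left] at this)
    have h3 := LinearMap.congr_fun h1 t
    have h4 := LinearMap.congr_fun h2 t
    rw [co_apply, LinearMap.zero_apply] at h3 h4
    rw [kU_add, h3, add_zero] at h4
    exact h4
  · exact LinearMap.congr_fun (claim u z hu huz) t

end Cfsg.Agent.H887.TenSp
end

-- part: H887/TenSp/ExtractTwo
section
/-!
The extraction of root elements, `dim U = 2`, `|F| > 2`.
-/

set_option autoImplicit false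
set_option linter.unusedSectionVars false
set_option linter.unusedSimpArgs false

namespace Cfsg.Agent.H887.TenSp

open TensorProduct QuadraticMap Cfsg.Agent.LieClassical.OrthCore
  Cfsg.Agent.LieClassical.OrthTrans Cfsg.Agent.ClassicalGeometry.OrthAutBasic
  Cfsg.Agent.H887.SiegelMethod

variable {F U W : Type*} [Field F] [AddCommGroup U] [Module F U] [AddCommGroup W] [Module F W]
  [FiniteDimensional F U] [FiniteDimensional F W]
  {f : LinearMap.BilinForm F U} {g : LinearMap.BilinForm F W}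
  {Q : QuadraticForm F (U ⊗[F] W)} {M : Subgroup ((U ⊗[F] W) ≃ₗ[F] (U ⊗[F] W))}

theorem Hy.beta_of_NU (h : Hy f g Q M) {u : U} (hu0 : u ≠ 0) {m : Module.End F W}
    (hI : In M (TensorProduct.map (E1 f u u) m)) (hm0 : m ≠ 0) {x : W} (hx : x ≠ 0)
    (hmx : m x = 0) : Beta g Q M := by
  obtain ⟨z, hz⟩ := h.hf.exists_ne hu0
  have hzu : f z u = -1 := by rw [h.hf.neg, hz]
  have hsing : ∀ v v' : U ⊗[F] W, polar Q (TensorProduct.map (E1 f u u) m v)
      (TensorProduct.map (E1 f u u) m v') = 0 := by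
    intro v v'
    rw [map_E1_left, map_E1_left, h.pol, h.hf.alt, zero_mul]
  have hadj : ∀ s t, g s (m t) = g (m s) t := by
    intro s t
    have h1 := h.skew hI hsing (z ⊗ₜ s) (z ⊗ₜ t)
    rw [map_tmul, map_tmul, E1_apply, hz, one_smul, h.pol, h.pol, hzu, neg_one_mul, neg_one_mul,
      neg_neg, h.hg.neg t, ← neg_eq_iff_eq_neg, neg_neg] at h1
    exact h1
  have halt : ∀ w, g w (m w) = 0 := by
    intro w
    obtain ⟨s, hs, hs'⟩ := hI
    have h1 := h.hO hs (z ⊗ₜ w)
    rw [hs', map_tmul, E1_apply, hz, one_smul, Q_add, h.Qp, h.Qp, h.pol, hzu, zero_add, zero_add,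
      neg_one_mul, neg_eq_zero] at h1
    exact h1
  obtain ⟨w, hw⟩ : ∃ w, m w ∉ Submodule.span F {w} := by
    by_contra hcon
    push Not at hcon
    exact hm0 (eq_zero_of_scalar hcon hx hmx)
  have hw0 : w ≠ 0 := by
    rintro rfl
    rw [map_zero] at hw
    exact hw (Submodule.zero_mem _)
  refine h.beta_of hu0 (ne_of_not_mem hw) (not_mem_symm hw hw0) (h.mem_Ts_of_In
    (by rw [h.hf.alt, zero_mul]) (one_ne_zero (α := F)) fun c => ?_)
  have hN : Nil (Auv f W u u) (TensorProduct.map (E1 f u u) m) :=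
    h.hf.nil_Auv (h.hf.alt u) m
  have h1 := hI.comm hN (h.hW w c) (NW_sq h.hg w c) (Auv_smul_map _ _ _ _)
  refine h1.congr ?_
  have e1 : E1 g w w * m = E1 g w (m w) := by
    ext y
    rw [Module.End.mul_apply, E1_apply, E1_apply, hadj]
  have e2 : m * E1 g w w = E1 g (m w) w := by
    ext y
    rw [Module.End.mul_apply, E1_apply, E1_apply, map_smul]
  have e3 : E1 g w w * m * E1 g w w = 0 := by
    rw [E1_conj, halt, zero_smul]
  rw [one_smul, h.rt_eq]
  simp only [smul_mul_assoc, mul_smul_comm, map_mul', one_mul, mul_one, e1, e2]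
  have e4 : E1 g w (m w) * E1 g w w = 0 := by
    rw [← e1, e3]
  rw [e4, TensorProduct.map_zero_right]
  module

theorem Alt.mem_span_of_two (hf : Alt f) (hd : Module.finrank F U = 2) {u y : U} (hu : u ≠ 0)
    (h : f u y = 0) : y ∈ Submodule.span F {u} := by
  have h1 : Submodule.span F {u} ≤ perp f (Submodule.span F {u}) := by
    rw [Submodule.span_le, Set.singleton_subset_iff]
    intro z hz
    obtain ⟨c, rfl⟩ := Submodule.mem_span_singleton.1 hz
    rw [map_smul, LinearMap.smul_apply, hf.alt, smul_zero]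
  have h3 := hf.finrank_perp (Submodule.span F {u})
  have h4 := finrank_span_singleton (K := F) hu
  have h2 := Submodule.eq_of_le_of_finrank_eq h1 (by omega)
  rw [h2]
  intro z hz
  obtain ⟨c, rfl⟩ := Submodule.mem_span_singleton.1 hz
  rw [map_smul, LinearMap.smul_apply, h, smul_zero]

theorem Alt.decomp_two (hf : Alt f) (hd : Module.finrank F U = 2) {u v : U} (huv : f u v = 1)
    (z : U) : z = f u z • v - f v z • u := by
  have hu : u ≠ 0 := by rintro rfl; simp at huv
  have hvu : f v u = -1 := by rw [hf.neg, huv]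
  have h1 : f u (z - (f u z • v - f v z • u)) = 0 := by
    simp [huv, hf.alt]
  obtain ⟨c, hc⟩ := Submodule.mem_span_singleton.1 (hf.mem_span_of_two hd hu h1)
  have h2 : f v (z - (f u z • v - f v z • u)) = 0 := by
    simp [hvu, hf.alt]
  rw [← hc, map_smul, hvu, smul_eq_mul, mul_neg, mul_one, neg_eq_zero] at h2
  rw [h2, zero_smul] at hc
  exact sub_eq_zero.1 hc.symm

theorem Alt.decomp_two' (hf : Alt f) (hd : Module.finrank F U = 2) {u v : U} (huv : f u v = 1)
    (y : U ⊗[F] W) : y = v ⊗ₜ kU f W u y - u ⊗ₜ kU f W v y := by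
  induction y with
  | zero => simp
  | tmul z t =>
    rw [kU_tmul, kU_tmul, TensorProduct.tmul_smul, TensorProduct.tmul_smul,
      TensorProduct.smul_tmul', TensorProduct.smul_tmul', ← TensorProduct.sub_tmul,
      ← hf.decomp_two hd huv z]
  | add x y hx hy =>
    rw [map_add, map_add, TensorProduct.tmul_add, TensorProduct.tmul_add]
    conv_lhs => rw [hx, hy]
    abel

theorem Hy.ext_two (h : Hy f g Q M) (hdU : Module.finrank F U = 2)
    (hq : ∃ c : F, c ≠ 0 ∧ c ≠ 1) (hb : ¬ Beta g Q M) {L : Submodule F W}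
    (hL0 : ∃ x ∈ L, x ≠ 0) {n : Module.End F (U ⊗[F] W)} (hn : In M n)
    (hN : Nil (UL U L) n) : ∃ ν : Module.End F W, n = TensorProduct.map 1 ν := by
  obtain ⟨x, hxL, hx0⟩ := hL0
  have hco : ∀ u v, co f n u v x = 0 := fun u v => by
    rw [co_apply, hN.ker _ (tmul_mem_UL v hxL), map_zero]
  have claim : ∀ u : U, u ≠ 0 → co f n u u = 0 := by
    intro u hu
    by_contra ha
    by_cases h2 : (2 : F) = 0
    · obtain ⟨c0, hc0, hc1⟩ := hq
      have hsq : c0 * c0 - 1 ≠ 0 := by
        intro e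
        apply hc1
        have e1 : (c0 - 1) * (c0 - 1) = 0 := by
          have : (c0 - 1) * (c0 - 1) = (c0 * c0 - 1) - 2 * (c0 - 1) := by ring
          rw [this, e, h2]
          ring
        have e2 := mul_self_eq_zero.1 e1
        exact sub_eq_zero.1 e2
      obtain ⟨v, huv⟩ := h.hf.exists_ne hu
      have hcu : c0 • u ≠ 0 := smul_ne_zero hc0 hu
      obtain ⟨X, hX, hXu⟩ := h.transU hu hcu
      -- the key element
      have key : ∀ μ : F, In M (TensorProduct.map (E1 f u u)
          ((c0 * c0 - 1) • (μ • (co f n u v + co f n v u) - (μ * μ) • co f n u u))) := by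
        intro μ
        have h1 := hn.comm hN (h.hU u μ) (NU_sq h.hf u μ) (UL_smul_map _ _ L)
        have hN1 := hN.comm (UL_smul_map μ (E1 f u u) L)
        have e1 : (μ • TensorProduct.map (E1 f u u) (1 : Module.End F W)) * n -
            n * (μ • TensorProduct.map (E1 f u u) 1) -
            (μ • TensorProduct.map (E1 f u u) 1) * n * (μ • TensorProduct.map (E1 f u u) 1) =
            TensorProduct.map (E1 f u u)
              (μ • (co f n u v + co f n v u) - (μ * μ) • co f n u u) +
            TensorProduct.map 1 (-(μ • co f n u u)) := by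
          apply TensorProduct.ext'
          intro z t
          have ez : z ⊗ₜ[F] t = f u z • (v ⊗ₜ t) - f v z • (u ⊗ₜ t) := by
            conv_lhs => rw [h.hf.decomp_two hdU huv z]
            rw [TensorProduct.sub_tmul, TensorProduct.smul_tmul', TensorProduct.smul_tmul']
          have en : n (u ⊗ₜ t) = v ⊗ₜ co f n u u t - u ⊗ₜ co f n v u t :=
            h.hf.decomp_two' hdU huv _
          have en1 : kU f W u (n (z ⊗ₜ t)) = f u z • co f n u v t - f v z • co f n u u t := by
            rw [ez, map_sub, map_smul, map_smul, map_sub, map_smul, map_smul]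
            rfl
          have eN : ∀ y : U ⊗[F] W, TensorProduct.map (E1 f u u) (1 : Module.End F W) y =
              u ⊗ₜ kU f W u y := by
            intro y
            rw [map_E1_left, Module.End.one_apply]
          simp only [LinearMap.sub_apply, LinearMap.add_apply, Module.End.mul_apply,
            LinearMap.smul_apply, eN, map_smul, kU_tmul, TensorProduct.tmul_smul, map_tmul,
            E1_apply, Module.End.one_apply, LinearMap.neg_apply, TensorProduct.tmul_neg]
          rw [en1, en]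
          have e2 : kU f W u (v ⊗ₜ co f n u u t - u ⊗ₜ co f n v u t) = co f n u u t := by
            rw [map_sub, kU_tmul, kU_tmul, huv, h.hf.alt, one_smul, zero_smul, sub_zero]
          rw [e2]
          -- `z = f u z v - f v z u`
          have ez2 : z ⊗ₜ[F] co f n u u t = f u z • (v ⊗ₜ co f n u u t) -
              f v z • (u ⊗ₜ co f n u u t) := by
            conv_lhs => rw [h.hf.decomp_two hdU huv z]
            rw [TensorProduct.sub_tmul, TensorProduct.smul_tmul', TensorProduct.smul_tmul']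
          rw [ez2]
          simp only [TensorProduct.tmul_sub, TensorProduct.tmul_add, TensorProduct.tmul_smul,
            ← TensorProduct.smul_tmul']
          have h20 : ∀ y : U ⊗[F] W, (2 : F) • y = 0 := fun y => by rw [h2, zero_smul]
          have e3 := h20 (μ • f v z • (u ⊗ₜ co f n u u t))
          rw [← sub_eq_zero]
          rw [← neg_eq_zero, ← e3]
          module
        have h2' := h1.congr e1
        rw [e1] at hN1
        have h3 := h2'.conj hX.2
        have e4 : ((actU W X : (U ⊗[F] W) ≃ₗ[F] (U ⊗[F] W)) : (U ⊗[F] W) →ₗ[F] (U ⊗[F] W)) ∘ₗ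
            (TensorProduct.map (E1 f u u)
              (μ • (co f n u v + co f n v u) - (μ * μ) • co f n u u) +
            TensorProduct.map 1 (-(μ • co f n u u))) ∘ₗ
            ((actU W X)⁻¹ : (U ⊗[F] W) ≃ₗ[F] (U ⊗[F] W)) =
            TensorProduct.map ((c0 * c0) • E1 f u u)
              (μ • (co f n u v + co f n v u) - (μ * μ) • co f n u u) +
            TensorProduct.map 1 (-(μ • co f n u u)) := by
          apply TensorProduct.ext'
          intro z t
          have e5 : ((actU W X)⁻¹ : (U ⊗[F] W) ≃ₗ[F] (U ⊗[F] W)) (z ⊗ₜ t) = X⁻¹ z ⊗ₜ t := by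
            rw [← map_inv, actU_tmul]
          have e6 : f u (X⁻¹ z) = c0 * f u z := by
            rw [← hX.1, hXu, map_smul, LinearMap.smul_apply, smul_eq_mul]
            congr 2
            exact LinearEquiv.apply_symm_apply X z
          have e7 : X (X⁻¹ z) = z := LinearEquiv.apply_symm_apply X z
          show actU W X ((TensorProduct.map (E1 f u u)
              (μ • (co f n u v + co f n v u) - (μ * μ) • co f n u u) +
            TensorProduct.map 1 (-(μ • co f n u u)) : Module.End F (U ⊗[F] W))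
              (((actU W X)⁻¹ : (U ⊗[F] W) ≃ₗ[F] (U ⊗[F] W)) (z ⊗ₜ t))) = _
          rw [e5, LinearMap.add_apply, map_tmul, map_tmul, map_add, actU_tmul, actU_tmul,
            E1_apply, map_smul, e6, hXu, LinearMap.add_apply, map_tmul, map_tmul,
            Module.End.one_apply, Module.End.one_apply, e7, LinearMap.smul_apply, E1_apply,
            smul_smul, smul_smul]
          congr 3
          ring
        rw [e4] at h3
        have hN3 : Nil (UL U L) (TensorProduct.map ((c0 * c0) • E1 f u u)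
              (μ • (co f n u v + co f n v u) - (μ * μ) • co f n u u) +
            TensorProduct.map 1 (-(μ • co f n u u))) := by
          rw [← e4]
          have hpres : ∀ Y : U ≃ₗ[F] U, ∀ y ∈ UL U L, actU W Y y ∈ UL U L := by
            intro Y y hy
            have h1 : UL U L ≤ (UL U L).comap (actU W Y : (U ⊗[F] W) →ₗ[F] (U ⊗[F] W)) := by
              refine Submodule.span_le.2 ?_
              rintro _ ⟨z, t, ht, rfl⟩
              show actU W Y (z ⊗ₜ t) ∈ UL U L
              rw [actU_tmul]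
              exact tmul_mem_UL _ ht
            exact h1 hy
          constructor
          · intro y
            exact hpres X _ (hN1.im _)
          · intro y hy
            have h5 : ((actU W X)⁻¹ : (U ⊗[F] W) ≃ₗ[F] (U ⊗[F] W)) y ∈ UL U L := by
              rw [← map_inv]
              exact hpres X⁻¹ y hy
            have h6 := hN1.ker _ h5
            show actU W X _ = 0
            rw [LinearMap.comp_apply]
            erw [h6]
            exact map_zero _
        have h7 := h3.sub h2' (hN1.mul hN1) (hN3.mul hN1)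
        refine h7.congr ?_
        rw [TensorProduct.map_smul_left, TensorProduct.map_smul_right]
        module
      -- one of `μ = 1`, `μ = c0` gives a nonzero operator
      set A := co f n u v + co f n v u with hA
      set B := co f n u u with hB
      have hAx : A x = 0 := by rw [hA, LinearMap.add_apply, hco, hco, add_zero]
      have hBx : B x = 0 := hco u u
      have hkill : ∀ μ : F, ((c0 * c0 - 1) • (μ • A - (μ * μ) • B)) x = 0 := by
        intro μ
        rw [LinearMap.smul_apply, LinearMap.sub_apply, LinearMap.smul_apply,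
          LinearMap.smul_apply, hAx, hBx, smul_zero, smul_zero, sub_zero, smul_zero]
      have hzero : ∀ μ : F, μ • A - (μ * μ) • B = 0 := by
        intro μ
        by_contra hne
        exact hb (h.beta_of_NU hu (key μ) (smul_ne_zero hsq hne) hx0 (hkill μ))
      have h1 := hzero 1
      have h3 := hzero c0
      rw [one_smul, one_mul, one_smul, sub_eq_zero] at h1
      rw [h1, ← sub_smul] at h3
      rcases smul_eq_zero.1 h3 with h4 | h4
      · have : c0 * (1 - c0) = 0 := by rw [← h4]; ring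
        rcases mul_eq_zero.1 this with h5 | h5
        · exact hc0 h5
        · exact hc1 (sub_eq_zero.1 h5).symm
      · exact ha h4
    · apply hb
      have h1 := hn.comm2 hN (h.hU u (-(2 : F)⁻¹)) (NU_sq h.hf u _) (UL_smul_map _ _ L)
        (h.hU u 1) (NU_sq h.hf u 1) (UL_smul_map _ _ L) (NU_mul_zero (h.hf.alt u) _ _)
        (NU_mul_zero (h.hf.alt u) _ _)
      have h3 : In M (TensorProduct.map (E1 f u u) (co f n u u)) := by
        refine h1.congr ?_
        rw [one_smul, mul_smul_comm, smul_mul_assoc, smul_mul_assoc, NnN, ← add_smul, ← neg_smul]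
        have : -(-(2 : F)⁻¹ + -(2 : F)⁻¹) = 1 := by
          field_simp
          ring
        rw [this, one_smul]
      exact h.beta_of_NU hu h3 ha hx0 (hco u u)
  have hU0 : ∃ u : U, u ≠ 0 := by
    by_contra hcon
    push Not at hcon
    have : Subsingleton U := ⟨fun a b => by rw [hcon a, hcon b]⟩
    have := Module.finrank_zero_of_subsingleton (R := F) (M := U)
    omega
  refine h.hf.eq_map_one hU0 ?_
  intro z t u hu
  by_cases hz : z = 0
  · rw [hz, TensorProduct.zero_tmul, map_zero, map_zero]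
  obtain ⟨c, rfl⟩ := Submodule.mem_span_singleton.1
    (h.hf.mem_span_of_two hdU hz (h.hf.comm_zero hu))
  rw [kU_smul]
  have := LinearMap.congr_fun (claim z hz) t
  rw [co_apply, LinearMap.zero_apply] at this
  rw [this, smul_zero]

end Cfsg.Agent.H887.TenSp
end

-- part: H887/TenSp/Local
section
/-!
The stabilisers of `U ⊗ L` in `M`.
-/

set_option autoImplicit false
set_option linter.unusedSectionVars false
set_option linter.unusedSimpArgs false

namespace Cfsg.Agent.H887.TenSp

open TensorProduct QuadraticMap Cfsg.Agent.LieClassical.OrthCore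
  Cfsg.Agent.LieClassical.OrthTrans Cfsg.Agent.ClassicalGeometry.OrthAutBasic
  Cfsg.Agent.H887.SiegelMethod

variable {F U W : Type*} [Field F] [AddCommGroup U] [Module F U] [AddCommGroup W] [Module F W]
  [FiniteDimensional F U] [FiniteDimensional F W]
  {f : LinearMap.BilinForm F U} {g : LinearMap.BilinForm F W}
  {Q : QuadraticForm F (U ⊗[F] W)} {M : Subgroup ((U ⊗[F] W) ≃ₗ[F] (U ⊗[F] W))}

/-- The elements `A ⊗ B`. -/
def Sten (F U W : Type*) [Field F] [AddCommGroup U] [Module F U] [AddCommGroup W] [Module F W] :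
    Subgroup ((U ⊗[F] W) ≃ₗ[F] (U ⊗[F] W)) where
  carrier := {s | ∃ (A : U ≃ₗ[F] U) (B : W ≃ₗ[F] W), ∀ x y, s (x ⊗ₜ y) = A x ⊗ₜ B y}
  one_mem' := ⟨1, 1, fun x y => rfl⟩
  mul_mem' := by
    rintro s s' ⟨A, B, h⟩ ⟨A', B', h'⟩
    refine ⟨A * A', B * B', fun x y => ?_⟩
    show s (s' (x ⊗ₜ y)) = _
    rw [h', h]
    rfl
  inv_mem' := by
    rintro s ⟨A, B, h⟩
    refine ⟨A⁻¹, B⁻¹, fun x y => ?_⟩
    apply s.injective
    rw [h]
    have e1 : A (A⁻¹ x) = x := LinearEquiv.apply_symm_apply A x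
    have e2 : B (B⁻¹ y) = y := LinearEquiv.apply_symm_apply B y
    rw [e1, e2]
    exact LinearEquiv.apply_symm_apply s _

theorem mem_Sten {s : (U ⊗[F] W) ≃ₗ[F] (U ⊗[F] W)} :
    s ∈ Sten F U W ↔ ∃ (A : U ≃ₗ[F] U) (B : W ≃ₗ[F] W), ∀ x y, s (x ⊗ₜ y) = A x ⊗ₜ B y := Iff.rfl

/-- The elements of `M` fixing `U ⊗ L` pointwise are of the form `1 ⊗ (1 + ν)`. -/
def LZ (g : LinearMap.BilinForm F W) (M : Subgroup ((U ⊗[F] W) ≃ₗ[F] (U ⊗[F] W))) : Prop :=
  ∀ L : Submodule F W, perp g L = L → ∀ s ∈ M, (∀ z : U, ∀ x ∈ L, s (z ⊗ₜ x) = z ⊗ₜ x) →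
    ∃ ν : Module.End F W, ∀ z t, s (z ⊗ₜ t) = z ⊗ₜ (t + ν t)

theorem Hy.LZ_of (h : Hy f g Q M) (hU : 2 ≤ Module.finrank F U) (hW : 5 ≤ Module.finrank F W)
    (hq : 3 ≤ Module.finrank F U ∨ ∃ c : F, c ≠ 0 ∧ c ≠ 1) (hb : ¬ Beta g Q M) :
    LZ g M := by
  intro L hL s hs hfix
  have hL0 : ∃ x ∈ L, x ≠ 0 := by
    by_contra hcon
    push Not at hcon
    have h1 : L = ⊥ := (Submodule.eq_bot_iff _).2 hcon
    have h2 := h.hg.finrank_perp L
    rw [hL, h1, finrank_bot] at h2
    omega
  let n : Module.End F (U ⊗[F] W) := (s : (U ⊗[F] W) →ₗ[F] (U ⊗[F] W)) - 1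
  have hn' : ∀ v, n v = s v - v := fun v => rfl
  have hn : In M n := ⟨s, hs, fun v => by rw [hn']; abel⟩
  have hN : Nil (UL U L) n := by
    constructor
    · intro v
      rw [mem_UL_iff h.hg, hL]
      intro w hw
      apply h.hf.nd' _ fun z => ?_
      rw [← h.polW, hn', sub_eq_add_neg, polar_add_right, polar_neg_right]
      have h1 := polar_map (h.hO hs) (z ⊗ₜ w) v
      rw [hfix z w hw] at h1
      rw [h1, add_neg_cancel]
    · intro v hv
      have h1 : UL U L ≤ LinearMap.ker n := by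
        refine Submodule.span_le.2 ?_
        rintro _ ⟨z, t, ht, rfl⟩
        show n (z ⊗ₜ t) = 0
        rw [hn', hfix z t ht, sub_self]
      exact h1 hv
  have h1 : ∃ ν : Module.End F W, n = TensorProduct.map 1 ν := by
    by_cases h3 : 3 ≤ Module.finrank F U
    · exact h.ext_four h3 hW hb hL hL0 hn hN
    · exact h.ext_two (by omega) (hq.resolve_left h3) hb hL0 hn hN
  obtain ⟨ν, hν⟩ := h1
  refine ⟨ν, fun z t => ?_⟩
  have h2 := hn' (z ⊗ₜ t)
  rw [hν, map_tmul, Module.End.one_apply] at h2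
  rw [TensorProduct.tmul_add, h2]
  abel

/-! ### The carrier lemma -/

/-- `r` maps `U ⊗ x` to `U ⊗ w` by `A`. -/
structure Carry (f : LinearMap.BilinForm F U) (g : LinearMap.BilinForm F W)
    (r : (U ⊗[F] W) ≃ₗ[F] (U ⊗[F] W)) (x w : W) (A : U ≃ₗ[F] U) (d : F) : Prop where
  hw : w ≠ 0
  hd : d ≠ 0
  hA : ∀ z, r (z ⊗ₜ x) = A z ⊗ₜ w
  hN : ∀ v, r (kW U g x v ⊗ₜ x) = d • (kW U g w (r v) ⊗ₜ w)
  hf : ∀ z z', f (A z) (A z') = d * f z z'

theorem actW_tv (hg : Alt g) (x : W) (c : F) (v : U ⊗[F] W) :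
    actW U (tv hg x c) v = v + c • (kW U g x v ⊗ₜ x) := by
  induction v with
  | zero => simp
  | tmul z t =>
    rw [actW_tmul, tv_apply, TensorProduct.tmul_add, kW_tmul, TensorProduct.tmul_smul,
      ← TensorProduct.smul_tmul', smul_smul]
  | add v v' hv hv' =>
    rw [map_add, hv, hv', map_add, TensorProduct.add_tmul, smul_add]
    abel

theorem actU_tv (hf : Alt f) (u : U) (c : F) (v : U ⊗[F] W) :
    actU W (tv hf u c) v = v + c • (u ⊗ₜ kU f W u v) := by
  induction v with
  | zero => simp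
  | tmul z t =>
    rw [actU_tmul, tv_apply, TensorProduct.add_tmul, kU_tmul, TensorProduct.tmul_smul,
      ← TensorProduct.smul_tmul', smul_smul]
  | add v v' hv hv' =>
    rw [map_add, hv, hv', map_add, TensorProduct.tmul_add, smul_add]
    abel

theorem Sp2.carry (h : Sp2 f g Q) (hdim : Module.finrank F U < Module.finrank F W)
    (hU0 : ∃ u : U, u ≠ 0) {r : (U ⊗[F] W) ≃ₗ[F] (U ⊗[F] W)} (hr : r ∈ O Q) {x : W} (hx : x ≠ 0)
    {c : F} (hc : c ≠ 0) {Y : Module.End F U} {Z : Module.End F W}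
    (hK : ∀ z t, (r * actW U (tv h.hg x c) * r⁻¹) (z ⊗ₜ t) = Y z ⊗ₜ Z t) :
    ∃ (w : W) (A : U ≃ₗ[F] U) (d : F), Carry f g r x w A d := by
  have hrr : ∀ v, r (r⁻¹ v) = v := fun v => LinearEquiv.apply_symm_apply r v
  have hrr' : ∀ v, r⁻¹ (r v) = v := fun v => LinearEquiv.symm_apply_apply r v
  have hKv : ∀ v, (r * actW U (tv h.hg x c) * r⁻¹) v = v + c • r (kW U g x (r⁻¹ v) ⊗ₜ x) := by
    intro v
    show r (actW U (tv h.hg x c) (r⁻¹ v)) = _
    rw [actW_tv, map_add, hrr, map_smul]
  -- `Y` is scalar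
  have hY : ∀ z, Y z ∈ Submodule.span F {z} := by
    intro z
    by_contra hz
    have hz0 : z ≠ 0 := by
      rintro rfl
      rw [map_zero] at hz
      exact hz (Submodule.zero_mem _)
    let φ : W →ₗ[F] U := kW U g x ∘ₗ (r⁻¹ : (U ⊗[F] W) ≃ₗ[F] (U ⊗[F] W)).toLinearMap ∘ₗ
      TensorProduct.mk F U W z
    have hφ : ∀ t, φ t = kW U g x (r⁻¹ (z ⊗ₜ t)) := fun t => rfl
    have hinj : Function.Injective φ := by
      rw [← LinearMap.ker_eq_bot, LinearMap.ker_eq_bot']
      intro t ht
      have h1 := hKv (z ⊗ₜ t)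
      rw [hK, ← hφ, ht, TensorProduct.zero_tmul, map_zero, smul_zero, add_zero] at h1
      have h2 : Y z ⊗ₜ[F] Z t + z ⊗ₜ (-t) = 0 := by
        rw [h1, TensorProduct.tmul_neg, add_neg_cancel]
      obtain ⟨-, h3⟩ := h.hf.indep_zero hz hz0 h2
      exact neg_eq_zero.1 h3
    have := LinearMap.finrank_le_finrank_of_injective hinj
    omega
  obtain ⟨z0, hz0⟩ := hU0
  obtain ⟨κ, hκ⟩ := Submodule.mem_span_singleton.1 (hY z0)
  have hYκ : ∀ z, Y z = κ • z := by
    have h1 : Y - κ • 1 = 0 := by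
      refine eq_zero_of_scalar (fun w => ?_) hz0 ?_
      · rw [LinearMap.sub_apply, LinearMap.smul_apply, Module.End.one_apply]
        exact Submodule.sub_mem _ (hY w) (Submodule.smul_mem _ _
          (Submodule.mem_span_singleton_self w))
      · rw [LinearMap.sub_apply, LinearMap.smul_apply, Module.End.one_apply, ← hκ, sub_self]
    intro z
    have := LinearMap.congr_fun h1 z
    rw [LinearMap.sub_apply, LinearMap.smul_apply, Module.End.one_apply, LinearMap.zero_apply]
      at this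
    exact sub_eq_zero.1 this
  let ζ : Module.End F W := κ • Z - 1
  have hζ : ∀ z t, z ⊗ₜ ζ t = c • r (kW U g x (r⁻¹ (z ⊗ₜ t)) ⊗ₜ x) := by
    intro z t
    have h1 := hKv (z ⊗ₜ t)
    rw [hK, hYκ] at h1
    have h2 : ζ t = κ • Z t - t := rfl
    rw [h2, TensorProduct.tmul_sub, TensorProduct.tmul_smul, TensorProduct.smul_tmul', h1]
    abel
  obtain ⟨t0, ht0⟩ : ∃ t, ζ t ≠ 0 := by
    by_contra hcon
    push Not at hcon
    obtain ⟨y, hy⟩ := h.hg.exists_ne hx
    -- then `kW x (r⁻¹ v) = 0` for all `v`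
    have h1 : ∀ v : U ⊗[F] W, c • r (kW U g x (r⁻¹ v) ⊗ₜ x) = 0 := by
      intro v
      induction v with
      | zero => simp
      | tmul z t => rw [← hζ, hcon, TensorProduct.tmul_zero]
      | add v v' hv hv' =>
        rw [map_add, map_add, TensorProduct.add_tmul, map_add, smul_add, hv, hv', add_zero]
    have h2 := h1 (r (z0 ⊗ₜ y))
    rw [hrr', kW_tmul, hy, one_smul] at h2
    have h3 := (smul_eq_zero.1 h2).resolve_left hc
    exact h.hf.tmul_ne_zero hz0 hx ((LinearEquiv.map_eq_zero_iff r).1 h3)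
  set w := ζ t0 with hw
  let θ : U →ₗ[F] U := c • (kW U g x ∘ₗ (r⁻¹ : (U ⊗[F] W) ≃ₗ[F] (U ⊗[F] W)).toLinearMap ∘ₗ
      (TensorProduct.mk F U W).flip t0)
  have hθ : ∀ z, θ z = c • kW U g x (r⁻¹ (z ⊗ₜ t0)) := fun z => rfl
  have hrθ : ∀ z, r (θ z ⊗ₜ x) = z ⊗ₜ w := by
    intro z
    rw [hθ, ← TensorProduct.smul_tmul', map_smul, ← hζ]
  have hθinj : Function.Injective θ := by
    rw [← LinearMap.ker_eq_bot, LinearMap.ker_eq_bot']
    intro z hz
    have h1 := hrθ z
    rw [hz, TensorProduct.zero_tmul, map_zero] at h1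
    exact h.hg.tmul_eq_zero' ht0 h1.symm
  let A : U ≃ₗ[F] U := (LinearEquiv.ofInjectiveEndo θ hθinj).symm
  have hθA : ∀ z, θ (A z) = z := fun z =>
    (LinearEquiv.ofInjectiveEndo θ hθinj).apply_symm_apply z
  have hA : ∀ z, r (z ⊗ₜ x) = A z ⊗ₜ w := by
    intro z
    conv_lhs => rw [← hθA z]
    exact hrθ (A z)
  -- the image of `ζ` is `⟨w⟩`
  have hφ : ∀ t, ∃ a : F, ζ t = a • w := by
    intro t
    obtain ⟨u, hu⟩ := h.hf.exists_ne' hz0
    have h1 := hζ z0 t
    rw [hA] at h1
    have h2 := congrArg (kU f W u) h1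
    rw [kU_tmul, hu, one_smul, map_smul, kU_tmul, smul_smul] at h2
    exact ⟨_, h2⟩
  choose φ hφ using hφ
  obtain ⟨z1, hz1⟩ := h.hf.exists_ne hz0
  have hiso : ∀ t t', φ t * g w t' + φ t' * g t w = 0 := by
    intro t t'
    have hKO : r * actW U (tv h.hg x c) * r⁻¹ ∈ O Q := by
      refine (O Q).mul_mem ((O Q).mul_mem hr ?_) ((O Q).inv_mem hr)
      -- `actW (tv x c)` is an isometry
      intro v
      rw [actW_tv, Q_add]
      have h1 : Q (c • (kW U g x v ⊗ₜ[F] x)) = 0 := by
        rw [QuadraticMap.map_smul, h.Qp, smul_zero]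
      have h2 : polar Q v (c • (kW U g x v ⊗ₜ[F] x)) = 0 := by
        rw [polar_smul_right, polar_comm, h.polW, h.hf.alt, smul_zero]
      rw [h1, h2, add_zero, add_zero]
    have h1 := polar_map hKO (z0 ⊗ₜ t) (z1 ⊗ₜ t')
    have h2 : ∀ z t, (r * actW U (tv h.hg x c) * r⁻¹) (z ⊗ₜ t) = z ⊗ₜ (t + φ t • w) := by
      intro z t
      rw [hKv, ← hζ, TensorProduct.tmul_add, hφ]
    rw [h2, h2, h.pol, h.pol, hz1, one_mul, one_mul] at h1
    simp only [map_add, LinearMap.add_apply, map_smul, LinearMap.smul_apply, smul_eq_mul,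
      h.hg.alt, mul_zero, add_zero] at h1
    linear_combination h1
  obtain ⟨t1, ht1⟩ := h.hg.exists_ne ht0
  have hφ1 : ∀ t, φ t = φ t1 * g w t := by
    intro t
    have h1 := hiso t t1
    rw [ht1, mul_one, h.hg.neg t w, mul_neg] at h1
    exact eq_of_sub_eq_zero (by rw [sub_eq_add_neg]; exact h1)
  have hd0 : φ t1 ≠ 0 := by
    intro h0
    apply ht0
    rw [hw, hφ t0, hφ1 t0, h0, zero_mul, zero_smul]
  have hζv : ∀ v : U ⊗[F] W, c • r (kW U g x (r⁻¹ v) ⊗ₜ x) = φ t1 • (kW U g w v ⊗ₜ w) := by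
    intro v
    induction v with
    | zero => simp
    | tmul z t =>
      rw [← hζ, hφ, hφ1, kW_tmul, TensorProduct.tmul_smul, ← TensorProduct.smul_tmul',
        smul_smul]
    | add v v' hv hv' =>
      rw [map_add, map_add, TensorProduct.add_tmul, map_add, smul_add, hv, hv', map_add,
        TensorProduct.add_tmul, smul_add]
  have hNN : ∀ v, r (kW U g x v ⊗ₜ x) = (c⁻¹ * φ t1) • (kW U g w (r v) ⊗ₜ w) := by
    intro v
    have h1 := hζv (r v)
    rw [hrr'] at h1
    rw [mul_smul, ← h1, smul_smul, inv_mul_cancel₀ hc, one_smul]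
  have hdd : c⁻¹ * φ t1 ≠ 0 := mul_ne_zero (inv_ne_zero hc) hd0
  refine ⟨w, A, c⁻¹ * φ t1, ht0, hdd, hA, hNN, fun z z' => ?_⟩
  obtain ⟨y, hy⟩ := h.hg.exists_ne hx
  have h1 := hNN (z' ⊗ₜ y)
  rw [kW_tmul, hy, one_smul, hA, TensorProduct.smul_tmul'] at h1
  have h2 : A z' = (c⁻¹ * φ t1) • kW U g w (r (z' ⊗ₜ y)) := h.hg.tmul_left_inj ht0 h1
  have h3 := polar_map hr (z ⊗ₜ x) (z' ⊗ₜ y)
  rw [hA, h.polW, h.pol, hy, mul_one] at h3
  rw [h2, map_smul, smul_eq_mul, h3]

end Cfsg.Agent.H887.TenSp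
end
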