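import Mathlib
import Cfsg.Agent.H887.TenSp.Local
import Cfsg.Agent.H880.TI
import Cfsg.Agent.H887.OmegaBridge
import Cfsg.Agent.H883.Tensor
import Cfsg.Agent.S0752
set_option linter.all false

-- part: H887/TenSp/LocalK
section
/-!
Lemma K: an element of `M` mapping `U ⊗ L` to `U ⊗ L'` is of the form `A ⊗ B`.
-/

set_option autoImplicit false
set_option linter.unusedSectionVars false
set_option linter.unusedSimpArgs false

namespace Cfsg.Agent.H887.TenSp

open TensorProduct QuadraticMap Cfsg.Agent.LieClassical.OrthCore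
  Cfsg.Agent.LieClassical.OrthTrans Cfsg.Agent.ClassicalGeometry.OrthAutBasic
  Cfsg.Agent.H887.SiegelMethod

variable {F U W : Type*} [Field F] [AddCommGroup U] [Module F U] [AddCommGroup W] [Module F W]
  [FiniteDimensional F U] [FiniteDimensional F W]
  {f : LinearMap.BilinForm F U} {g : LinearMap.BilinForm F W}
  {Q : QuadraticForm F (U ⊗[F] W)} {M : Subgroup ((U ⊗[F] W) ≃ₗ[F] (U ⊗[F] W))}

/-- `r` maps `U ⊗ L` onto `U ⊗ L'`. -/
structure MapsL (U : Type*) [AddCommGroup U] [Module F U]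
    (r : (U ⊗[F] W) ≃ₗ[F] (U ⊗[F] W)) (L L' : Submodule F W) : Prop where
  fwd : ∀ z : U, ∀ x ∈ L, r (z ⊗ₜ x) ∈ UL U L'
  bwd : ∀ z : U, ∀ x ∈ L', r⁻¹ (z ⊗ₜ x) ∈ UL U L

theorem MapsL.fwd' {r : (U ⊗[F] W) ≃ₗ[F] (U ⊗[F] W)} {L L' : Submodule F W}
    (h : MapsL U r L L') {v : U ⊗[F] W} (hv : v ∈ UL U L) : r v ∈ UL U L' := by
  have h1 : UL U L ≤ (UL U L').comap (r : (U ⊗[F] W) →ₗ[F] (U ⊗[F] W)) := by
    refine Submodule.span_le.2 ?_
    rintro _ ⟨z, t, ht, rfl⟩
    exact h.fwd z t ht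
  exact h1 hv

/-- Every transvection of `U` acts on `U ⊗ L'` as expected. -/
theorem Hy.lemK1 (h : Hy f g Q M) (hLZ : LZ g M)
    (hdim : Module.finrank F U < Module.finrank F W) (hU0 : ∃ u : U, u ≠ 0)
    {r : (U ⊗[F] W) ≃ₗ[F] (U ⊗[F] W)} (hr : r ∈ M) {L L' : Submodule F W} (hL : perp g L = L)
    (hL' : perp g L' = L') (hm : MapsL U r L L') {x : W} (hxL : x ∈ L) (hx : x ≠ 0) :
    ∃ (w : W) (A : U ≃ₗ[F] U) (d : F), Carry f g r x w A d := by
  have hyM : r * actW U (tv h.hg x 1) * r⁻¹ ∈ M :=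
    M.mul_mem (M.mul_mem hr (h.tvW x 1).2) (M.inv_mem hr)
  obtain ⟨ν, hν⟩ := hLZ L' hL' _ hyM (by
    intro z x' hx'
    show r (actW U (tv h.hg x 1) (r⁻¹ (z ⊗ₜ x'))) = z ⊗ₜ x'
    have h1 := hm.bwd z x' hx'
    rw [mem_UL_iff h.hg, hL] at h1
    rw [actW_tv, h1 x hxL, TensorProduct.zero_tmul, smul_zero, add_zero]
    exact LinearEquiv.apply_symm_apply r _)
  refine h.carry hdim hU0 (h.hO hr) hx one_ne_zero (Y := 1) (Z := 1 + ν) ?_
  intro z t
  rw [hν]
  rfl

theorem Hy.lemK2 (h : Hy f g Q M) (hLZ : LZ g M)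
    (hdim : Module.finrank F U < Module.finrank F W) (hU0 : ∃ u : U, u ≠ 0)
    {r : (U ⊗[F] W) ≃ₗ[F] (U ⊗[F] W)} (hr : r ∈ M) {L L' : Submodule F W} (hL : perp g L = L)
    (hL' : perp g L' = L') (hm : MapsL U r L L') {x0 w0 : W} {A : U ≃ₗ[F] U} {d : F}
    (hx0L : x0 ∈ L) (hC : Carry f g r x0 w0 A d) {x : W} (hxL : x ∈ L) :
    ∃ x' : W, ∀ z, r (z ⊗ₜ x) = A z ⊗ₜ x' := by
  by_cases hxs : x ∈ Submodule.span F {x0}
  · obtain ⟨c, rfl⟩ := Submodule.mem_span_singleton.1 hxs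
    refine ⟨c • w0, fun z => ?_⟩
    rw [TensorProduct.tmul_smul, map_smul, hC.hA, TensorProduct.tmul_smul]
  · have hx : x ≠ 0 := ne_of_not_mem hxs
    have hx2 : x0 + x ≠ 0 := by
      intro e
      apply hxs
      refine Submodule.mem_span_singleton.2 ⟨-1, ?_⟩
      rw [neg_one_smul]
      exact neg_eq_of_add_eq_zero_right e
    obtain ⟨w1, A1, d1, hC1⟩ := h.lemK1 hLZ hdim hU0 hr hL hL' hm hxL hx
    obtain ⟨w2, A2, d2, hC2⟩ := h.lemK1 hLZ hdim hU0 hr hL hL' hm (L.add_mem hx0L hxL) hx2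
    obtain ⟨z0, hz0⟩ := hU0
    -- independence of `w0`, `w1`
    have hind : w1 ∉ Submodule.span F {w0} := by
      intro hmem
      obtain ⟨κ, hκ⟩ := Submodule.mem_span_singleton.1 hmem
      have h1 : r (z0 ⊗ₜ x) = r (A.symm (κ • A1 z0) ⊗ₜ x0) := by
        rw [hC1.hA, hC.hA, LinearEquiv.apply_symm_apply, ← hκ, TensorProduct.smul_tmul]
      have h2 := r.injective h1
      -- contraction
      obtain ⟨y, hy, hy'⟩ := h.hg.sep1 hxs
      have h3 := congrArg (kW U g y) h2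
      rw [kW_tmul, kW_tmul, hy, hy', one_smul, zero_smul] at h3
      exact hz0 h3
    have hsum : ∀ z, A2 z ⊗ₜ[F] w2 = A z ⊗ₜ w0 + A1 z ⊗ₜ w1 := by
      intro z
      rw [← hC2.hA, ← hC.hA, ← hC1.hA, TensorProduct.tmul_add, map_add]
    obtain ⟨y1, hy1, hy1'⟩ := h.hg.sep1 hind
    obtain ⟨y0, hy0, hy0'⟩ := h.hg.sep1 (not_mem_symm hind hC.hw)
    have e1 : ∀ z, A1 z = g y1 w2 • A2 z := by
      intro z
      have := congrArg (kW U g y1) (hsum z)
      rw [map_add, kW_tmul, kW_tmul, kW_tmul, hy1, hy1', zero_smul, one_smul, zero_add] at this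
      exact this.symm
    have e0 : ∀ z, A z = g y0 w2 • A2 z := by
      intro z
      have := congrArg (kW U g y0) (hsum z)
      rw [map_add, kW_tmul, kW_tmul, kW_tmul, hy0, hy0', zero_smul, one_smul, add_zero] at this
      exact this.symm
    have hne : g y0 w2 ≠ 0 := by
      intro e
      have h1 := e0 z0
      rw [e, zero_smul] at h1
      exact hz0 ((LinearEquiv.map_eq_zero_iff A).1 h1)
    refine ⟨(g y1 w2 * (g y0 w2)⁻¹) • w1, fun z => ?_⟩
    rw [hC1.hA, e1, e0, TensorProduct.smul_tmul, TensorProduct.smul_tmul, smul_smul]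
    congr 2
    field_simp

/-- Conclusion from the action on the `u ⊗ W`. -/
theorem mem_Sten_of (hf : Alt f) (hU0 : ∃ u : U, u ≠ 0)
    {r : (U ⊗[F] W) ≃ₗ[F] (U ⊗[F] W)} {A : U ≃ₗ[F] U}
    (hD : ∀ u : U, ∀ t : W, ∃ s : W, r (u ⊗ₜ t) = A u ⊗ₜ s) : r ∈ Sten F U W := by
  obtain ⟨u0, hu0⟩ := hU0
  have hAu0 : A u0 ≠ 0 := fun e => hu0 ((LinearEquiv.map_eq_zero_iff A).1 e)
  obtain ⟨u1, hu1⟩ := hf.exists_ne' hAu0
  let D : W →ₗ[F] W := kU f W u1 ∘ₗ (r : (U ⊗[F] W) →ₗ[F] (U ⊗[F] W)) ∘ₗ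
    TensorProduct.mk F U W u0
  have hD0 : ∀ t, r (u0 ⊗ₜ t) = A u0 ⊗ₜ D t := by
    intro t
    obtain ⟨s, hs⟩ := hD u0 t
    have : D t = kU f W u1 (r (u0 ⊗ₜ t)) := rfl
    rw [this, hs, kU_tmul, hu1, one_smul]
  have hDu : ∀ u t, r (u ⊗ₜ t) = A u ⊗ₜ D t := by
    intro u t
    by_cases hu : u ∈ Submodule.span F {u0}
    · obtain ⟨c, rfl⟩ := Submodule.mem_span_singleton.1 hu
      rw [← TensorProduct.smul_tmul', map_smul, hD0, map_smul, TensorProduct.smul_tmul']
    · obtain ⟨s1, hs1⟩ := hD u t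
      obtain ⟨s2, hs2⟩ := hD (u + u0) t
      have hAu : A u ∉ Submodule.span F {A u0} := by
        intro hmem
        obtain ⟨c, hc⟩ := Submodule.mem_span_singleton.1 hmem
        rw [← map_smul] at hc
        exact hu (Submodule.mem_span_singleton.2 ⟨c, A.injective hc⟩)
      have h1 : A u ⊗ₜ[F] (s2 - s1) + A u0 ⊗ₜ (s2 - D t) = 0 := by
        rw [TensorProduct.add_tmul, map_add, hs1, hD0, map_add, TensorProduct.add_tmul] at hs2
        rw [TensorProduct.tmul_sub, TensorProduct.tmul_sub]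
        have h3 : A u ⊗ₜ[F] s2 - A u ⊗ₜ s1 + (A u0 ⊗ₜ s2 - A u0 ⊗ₜ D t) =
          (A u ⊗ₜ[F] s2 + A u0 ⊗ₜ s2) - (A u ⊗ₜ s1 + A u0 ⊗ₜ D t) := by abel
        rw [h3, ← hs2, sub_self]
      obtain ⟨e1, e2⟩ := hf.indep_zero hAu hAu0 h1
      rw [hs1, ← sub_eq_zero.1 e1, sub_eq_zero.1 e2]
  have hinj : Function.Injective D := by
    rw [← LinearMap.ker_eq_bot, LinearMap.ker_eq_bot']
    intro t ht
    have h1 := hD0 t
    rw [ht, TensorProduct.tmul_zero] at h1
    exact hf.tmul_eq_zero hu0 ((LinearEquiv.map_eq_zero_iff r).1 h1)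
  exact ⟨A, LinearEquiv.ofInjectiveEndo D hinj, hDu⟩

/-- **Lemma K.** -/
theorem Hy.lemK (h : Hy f g Q M) (hLZ : LZ g M)
    (hdim : Module.finrank F U < Module.finrank F W) (hU0 : ∃ u : U, u ≠ 0)
    (hq : 3 ≤ Module.finrank F U ∨ ∃ c : F, c ≠ 0 ∧ c ≠ 1)
    {r : (U ⊗[F] W) ≃ₗ[F] (U ⊗[F] W)} (hr : r ∈ M) {L L' : Submodule F W} (hL : perp g L = L)
    (hL' : perp g L' = L') (hm : MapsL U r L L') (hL0 : ∃ x ∈ L, x ≠ 0) : r ∈ Sten F U W := by
  obtain ⟨x0, hx0L, hx0⟩ := hL0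
  obtain ⟨w0, A, d, hC⟩ := h.lemK1 hLZ hdim hU0 hr hL hL' hm hx0L hx0
  have hrr : ∀ v, r (r⁻¹ v) = v := fun v => LinearEquiv.apply_symm_apply r v
  have hrr' : ∀ v, r⁻¹ (r v) = v := fun v => LinearEquiv.symm_apply_apply r v
  have hd := hC.hd
  -- the action on `U ⊗ L`
  have hact : ∀ (u : U) (c : F), ∀ v ∈ UL U L, r (actU W (tv h.hf u c) v) =
      actU W (tv h.hf (A u) (c * d⁻¹)) (r v) := by
    intro u c v hv
    have h1 : UL U L ≤ LinearMap.eqLocus
        ((r : (U ⊗[F] W) →ₗ[F] (U ⊗[F] W)) ∘ₗ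
          (actU W (tv h.hf u c) : (U ⊗[F] W) →ₗ[F] (U ⊗[F] W)))
        ((actU W (tv h.hf (A u) (c * d⁻¹)) : (U ⊗[F] W) →ₗ[F] (U ⊗[F] W)) ∘ₗ
          (r : (U ⊗[F] W) →ₗ[F] (U ⊗[F] W))) := by
      refine Submodule.span_le.2 ?_
      rintro _ ⟨z, t, ht, rfl⟩
      obtain ⟨x', hx'⟩ := h.lemK2 hLZ hdim hU0 hr hL hL' hm hx0L hC ht
      show r (actU W (tv h.hf u c) (z ⊗ₜ t)) = actU W (tv h.hf (A u) (c * d⁻¹)) (r (z ⊗ₜ t))
      rw [actU_tmul, hx', hx', actU_tmul, tv_apply, tv_apply, hC.hf, map_add, map_smul]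
      congr 3
      field_simp
    exact h1 hv
  -- the elements `ν`
  have hνex : ∀ (u : U) (c : F), ∃ ν : Module.End F W, (∀ x ∈ L', ν x = 0) ∧
      ∀ z t, (r * actU W (tv h.hf u c) * r⁻¹) (z ⊗ₜ t) =
        tv h.hf (A u) (c * d⁻¹) z ⊗ₜ (t + ν t) := by
    intro u c
    set τ := tv h.hf (A u) (c * d⁻¹) with hτ
    have hττ : ∀ z, τ (τ⁻¹ z) = z := fun z => LinearEquiv.apply_symm_apply τ z
    have hττ' : ∀ z, τ⁻¹ (τ z) = z := fun z => LinearEquiv.symm_apply_apply τ z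
    have hyM : (r * actU W (tv h.hf u c) * r⁻¹) * (actU W τ)⁻¹ ∈ M :=
      M.mul_mem (M.mul_mem (M.mul_mem hr (h.tvU u c).2) (M.inv_mem hr))
        (M.inv_mem (h.tvU _ _).2)
    have hfix : ∀ z : U, ∀ x ∈ L', ((r * actU W (tv h.hf u c) * r⁻¹) * (actU W τ)⁻¹) (z ⊗ₜ x) =
        z ⊗ₜ x := by
      intro z x hx
      show r (actU W (tv h.hf u c) (r⁻¹ ((actU W τ)⁻¹ (z ⊗ₜ x)))) = z ⊗ₜ x
      rw [← map_inv, actU_tmul, hact u c _ (hm.bwd _ x hx), hrr, ← hτ, actU_tmul, hττ]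
    obtain ⟨ν, hν⟩ := hLZ L' hL' _ hyM hfix
    obtain ⟨u1, hu1⟩ := hU0
    refine ⟨ν, fun x hx => ?_, fun z t => ?_⟩
    · have h1 := hν u1 x
      rw [hfix u1 x hx, TensorProduct.tmul_add] at h1
      exact h.hf.tmul_eq_zero hu1 (left_eq_add.1 h1)
    · have h1 := hν (τ z) t
      rw [← h1]
      show _ = r (actU W (tv h.hf u c) (r⁻¹ ((actU W τ)⁻¹ (τ z ⊗ₜ t))))
      rw [← map_inv, actU_tmul, hττ']
      rfl
  -- `ν = 0`
  have hν0 : ∀ (u : U) (t : W) (z : U), (r * actU W (tv h.hf u 1) * r⁻¹) (z ⊗ₜ t) =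
      tv h.hf (A u) d⁻¹ z ⊗ₜ t := by
    intro u t z
    by_cases hu : u = 0
    · have e1 : tv h.hf u 1 = 1 := by
        ext y
        rw [tv_apply, hu, smul_zero, add_zero]
        rfl
      have e2 : tv h.hf (A u) d⁻¹ = 1 := by
        ext y
        rw [tv_apply, hu, map_zero, smul_zero, add_zero]
        rfl
      rw [e1, e2, map_one, mul_one, mul_inv_cancel]
      rfl
    have hAu : A u ≠ 0 := fun e => hu ((LinearEquiv.map_eq_zero_iff A).1 e)
    -- the difference is linear in `c`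
    have hδ : ∀ (c : F) (v : U ⊗[F] W), (r * actU W (tv h.hf u c) * r⁻¹) v =
        v + c • r (u ⊗ₜ kU f W u (r⁻¹ v)) := by
      intro c v
      show r (actU W (tv h.hf u c) (r⁻¹ v)) = _
      rw [actU_tv, map_add, hrr, map_smul]
    obtain ⟨ν, -, hν⟩ := hνex u 1
    rw [one_mul] at hν
    suffices hz : ν = 0 by
      rw [hν, hz, LinearMap.zero_apply, add_zero]
    obtain ⟨z1, hz1⟩ := h.hf.exists_ne hAu
    have hz1A : z1 ∉ Submodule.span F {A u} := by
      intro hmem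
      obtain ⟨c, rfl⟩ := Submodule.mem_span_singleton.1 hmem
      rw [map_smul, h.hf.alt, smul_zero] at hz1
      exact zero_ne_one hz1
    by_cases hc : ∃ c : F, c ≠ 0 ∧ c ≠ 1
    · obtain ⟨c, hc0, hc1⟩ := hc
      obtain ⟨ν', -, hν'⟩ := hνex u c
      ext t
      rw [LinearMap.zero_apply]
      -- compare on `A u ⊗ t` and `z1 ⊗ t`
      have k1 : ∀ z, c • (tv h.hf (A u) d⁻¹ z ⊗ₜ[F] (t + ν t) - z ⊗ₜ t) =
          tv h.hf (A u) (c * d⁻¹) z ⊗ₜ (t + ν' t) - z ⊗ₜ t := by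
        intro z
        rw [← hν, ← hν', hδ, hδ, add_sub_cancel_left, add_sub_cancel_left, one_smul]
      have k2 := k1 (A u)
      rw [tv_apply, tv_apply, h.hf.alt, mul_zero, zero_smul, add_zero, mul_zero, zero_smul,
        add_zero, ← TensorProduct.tmul_sub, ← TensorProduct.tmul_sub, add_sub_cancel_left,
        add_sub_cancel_left, ← TensorProduct.tmul_smul] at k2
      have k3 : ν' t = c • ν t := (h.hf.tmul_right_inj hAu k2).symm
      have k4 := k1 z1
      rw [tv_apply, tv_apply, hz1, mul_one, mul_one, k3] at k4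
      have k5 : z1 ⊗ₜ[F] (0 : W) + A u ⊗ₜ (d⁻¹ • (c • ν t) - (c * d⁻¹) • (c • ν t)) = 0 := by
        rw [← sub_eq_zero] at k4
        rw [← k4]
        simp only [TensorProduct.add_tmul, TensorProduct.tmul_add, TensorProduct.tmul_sub,
          TensorProduct.tmul_smul, TensorProduct.tmul_zero, ← TensorProduct.smul_tmul']
        module
      obtain ⟨-, k6⟩ := h.hf.indep_zero hz1A hAu k5
      have k7 : (d⁻¹ * c * (1 - c)) • ν t = 0 := by
        rw [← k6]
        module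
      refine (smul_eq_zero.1 k7).resolve_left ?_
      exact mul_ne_zero (mul_ne_zero (inv_ne_zero hd) hc0) (sub_ne_zero.2 (Ne.symm hc1))
    · -- `dim U ≥ 3`: rank argument
      have hU3 := hq.resolve_right hc
      by_contra hνn
      obtain ⟨t0, ht0⟩ : ∃ t0, ν t0 ≠ 0 := by
        by_contra hcon
        push Not at hcon
        exact hνn (LinearMap.ext hcon)
      obtain ⟨z2, hz2, hz2'⟩ := h.hf.exists_perp1 hU3 hAu
      have hz2A := h.hf.comm_zero hz2
      have hz2s : z2 ∉ Submodule.span F {A u, z1} := by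
        intro hmem
        obtain ⟨a, b, hab⟩ := Submodule.mem_span_pair.1 hmem
        have h1 : f (A u) z2 = b := by
          rw [← hab, map_add, map_smul, map_smul, h.hf.alt, hz1, smul_zero, zero_add,
            smul_eq_mul, mul_one]
        rw [hz2A] at h1
        rw [← h1, zero_smul, add_zero] at hab
        exact hz2' (Submodule.mem_span_singleton.2 ⟨a, hab⟩)
      obtain ⟨φ, hφ2, hφ0, hφ1⟩ := h.hf.sep2 hz2s
      let Φ : (W × F) →ₗ[F] W := kU f W u ∘ₗ
        (r⁻¹ : (U ⊗[F] W) ≃ₗ[F] (U ⊗[F] W)).toLinearMap ∘ₗ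
        (LinearMap.coprod (TensorProduct.mk F U W z1) (LinearMap.toSpanSingleton F _ (z2 ⊗ₜ t0)))
      have hΦ : ∀ t a, Φ (t, a) = kU f W u (r⁻¹ (z1 ⊗ₜ t + a • (z2 ⊗ₜ t0))) := by
        intro t a
        rfl
      have hinj : Function.Injective Φ := by
        rw [← LinearMap.ker_eq_bot, LinearMap.ker_eq_bot']
        rintro ⟨t, a⟩ hta
        rw [hΦ] at hta
        have h1 := hδ 1 (z1 ⊗ₜ t + a • (z2 ⊗ₜ t0))
        rw [hta, TensorProduct.tmul_zero, map_zero, smul_zero, add_zero, map_add, map_smul, hν,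
          hν, tv_apply, tv_apply, hz1, hz2A, mul_zero, zero_smul, add_zero, mul_one] at h1
        have h2 := congrArg (kU f W φ) h1
        simp only [map_add, map_smul, kU_tmul, LinearMap.add_apply, hφ1, hφ0, hφ2, smul_zero,
          add_zero, zero_smul, zero_add, one_smul, smul_add, smul_eq_mul, mul_zero] at h2
        have h3 : a = 0 := (smul_eq_zero.1 (left_eq_add.1 h2.symm)).resolve_right ht0
        rw [h3, zero_smul, zero_smul, add_zero, add_zero] at h1
        have h4 : z1 ⊗ₜ[F] ν t + A u ⊗ₜ (d⁻¹ • (t + ν t)) = 0 := by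
          rw [← sub_eq_zero] at h1
          rw [← h1]
          simp only [TensorProduct.add_tmul, TensorProduct.tmul_add, TensorProduct.tmul_sub,
            TensorProduct.tmul_smul, TensorProduct.tmul_zero, ← TensorProduct.smul_tmul']
          module
        obtain ⟨h5, h6⟩ := h.hf.indep_zero hz1A hAu h4
        rw [h5, add_zero] at h6
        have h7 := (smul_eq_zero.1 h6).resolve_left (inv_ne_zero hd)
        rw [h7, h3]
        rfl
      have h1 := LinearMap.finrank_le_finrank_of_injective hinj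
      rw [Module.finrank_prod, Module.finrank_self] at h1
      omega
  -- conclusion
  apply mem_Sten_of h.hf hU0 (A := A)
  intro u t
  by_cases hu : u = 0
  · exact ⟨0, by rw [hu, TensorProduct.zero_tmul, map_zero, TensorProduct.tmul_zero]⟩
  obtain ⟨z, hz⟩ := h.hf.exists_ne hu
  -- `r (u ⊗ kU u v) = d⁻¹ • (A u ⊗ kU (A u) (r v))`
  have key : ∀ v, (r * actU W (tv h.hf u 1) * r⁻¹) v = actU W (tv h.hf (A u) d⁻¹) v := by
    intro v
    induction v with
    | zero => simp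
    | tmul x y => rw [hν0, actU_tmul]
    | add v v' hv hv' => rw [map_add, hv, hv', map_add]
  have h1 := key (r (z ⊗ₜ t))
  have h2 : (r * actU W (tv h.hf u 1) * r⁻¹) (r (z ⊗ₜ t)) = r (z ⊗ₜ t) + r (u ⊗ₜ t) := by
    show r (actU W (tv h.hf u 1) (r⁻¹ (r (z ⊗ₜ t)))) = _
    rw [hrr', actU_tv, kU_tmul, hz, one_smul, one_smul, map_add]
  rw [h2, actU_tv] at h1
  have h3 := add_left_cancel h1
  exact ⟨d⁻¹ • kU f W (A u) (r (z ⊗ₜ t)), by rw [h3, TensorProduct.tmul_smul]⟩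

end Cfsg.Agent.H887.TenSp
end

-- part: H887/TenSp/Sylow
section
/-!
Sylow arguments: the stabiliser of `U ⊗ w` in `M` consists of elements `A ⊗ B`.
-/

set_option autoImplicit false
set_option linter.unusedSectionVars false
set_option linter.unusedSimpArgs false

namespace Cfsg.Agent.H887.TenSp

open TensorProduct QuadraticMap Cfsg.Agent.LieClassical.OrthCore
  Cfsg.Agent.LieClassical.OrthTrans Cfsg.Agent.ClassicalGeometry.OrthAutBasic
  Cfsg.Agent.H887.SiegelMethod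

/-! ### Pure group theory -/

/-- `K`, `H` subgroups of a finite group, `R₀ ≤ K ∩ H` a `p`-subgroup such that every `p`-subgroup
`S` with `R₀ ≤ S ≤ K ∩ H` satisfies `N_K(S) ≤ H`. Then `H` contains every normal `p`-subgroup of
`K`. -/
theorem sylow_normal_le {G : Type*} [Group G] [Finite G] {p : ℕ} [Fact p.Prime]
    {K H R₀ Y : Subgroup G} (hR : IsPGroup p R₀) (hRK : R₀ ≤ K ⊓ H)
    (hN : ∀ S : Subgroup G, IsPGroup p S → R₀ ≤ S → S ≤ K ⊓ H →
      ∀ r ∈ K, r ∈ Subgroup.normalizer (S : Set G) → r ∈ H)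
    (hY : IsPGroup p Y) (hYK : Y ≤ K) (hYn : ∀ k ∈ K, ∀ y ∈ Y, k * y * k⁻¹ ∈ Y) : Y ≤ H := by
  -- a maximal `p`-subgroup of `K ⊓ H` containing `R₀`
  obtain ⟨S, hRS, hS⟩ := (Set.toFinite {P : Subgroup G | IsPGroup p P ∧ P ≤ K ⊓ H}).exists_le_maximal
    (a := R₀) ⟨hR, hRK⟩
  obtain ⟨⟨hSp, hSK⟩, hSmax⟩ := hS
  -- the `p`-group `T = Y S`
  have hSN : S ≤ Subgroup.normalizer (Y : Set G) := by
    intro s hs
    rw [Subgroup.mem_normalizer_iff]
    intro y
    constructor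
    · exact hYn s (hSK hs).1 y
    · intro hy
      have := hYn s⁻¹ (K.inv_mem (hSK hs).1) _ hy
      have e : s⁻¹ * (s * y * s⁻¹) * s⁻¹⁻¹ = y := by group
      rwa [e] at this
  have hT : IsPGroup p (Y ⊔ S : Subgroup G) := hY.to_sup_of_normal_left' hSp hSN
  have hTK : Y ⊔ S ≤ K := sup_le hYK (hSK.trans inf_le_left)
  by_contra hcon
  have hlt : S < Y ⊔ S := by
    refine lt_of_le_of_ne le_sup_right ?_
    intro e
    apply hcon
    have h1 : Y ≤ S := by
      rw [e]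
      exact le_sup_left
    exact h1.trans (hSK.trans inf_le_right)
  set T := Y ⊔ S with hTdef
  have : Finite T := Subtype.finite
  have hnil : Group.IsNilpotent T := hT.isNilpotent
  have hnc : NormalizerCondition T := Group.normalizerCondition_of_isNilpotent
  have h1 : S.subgroupOf T < ⊤ := by
    rw [lt_top_iff_ne_top]
    intro e
    exact absurd (Subgroup.subgroupOf_eq_top.1 e) (not_le_of_gt hlt)
  have h2 := hnc _ h1
  obtain ⟨t, ht, htS⟩ := SetLike.exists_of_lt h2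
  have htN : (t : G) ∈ Subgroup.normalizer (S : Set G) := by
    rw [Subgroup.mem_normalizer_iff] at ht ⊢
    intro s
    constructor
    · intro hs
      have h3 := (ht ⟨s, hlt.le hs⟩).1 hs
      exact h3
    · intro hs
      have h4 : s ∈ T := by
        have h5 := T.mul_mem (T.mul_mem (T.inv_mem t.2) (hlt.le hs)) t.2
        have e : (t : G)⁻¹ * ((t : G) * s * (t : G)⁻¹) * (t : G) = s := by group
        rwa [e] at h5
      exact (ht ⟨s, h4⟩).2 hs
  have htH : (t : G) ∈ H := hN S hSp hRS hSK _ (hTK t.2) htN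
  have hP : S ⊔ Subgroup.zpowers (t : G) ≤ T :=
    sup_le hlt.le (by rw [Subgroup.zpowers_le]; exact t.2)
  have hPp : IsPGroup p (S ⊔ Subgroup.zpowers (t : G) : Subgroup G) := hT.to_le hP
  have hPK : S ⊔ Subgroup.zpowers (t : G) ≤ K ⊓ H := by
    refine sup_le hSK ?_
    rw [Subgroup.zpowers_le]
    exact ⟨hTK t.2, htH⟩
  have h3 := hSmax ⟨hPp, hPK⟩ le_sup_left
  apply htS
  exact h3 ((le_sup_right : Subgroup.zpowers (t : G) ≤ S ⊔ Subgroup.zpowers (t : G))
    (Subgroup.mem_zpowers (t : G)))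

variable {F U W : Type*} [Field F] [AddCommGroup U] [Module F U] [AddCommGroup W] [Module F W]
  [FiniteDimensional F U] [FiniteDimensional F W]
  {f : LinearMap.BilinForm F U} {g : LinearMap.BilinForm F W}
  {Q : QuadraticForm F (U ⊗[F] W)} {M : Subgroup ((U ⊗[F] W) ≃ₗ[F] (U ⊗[F] W))}

/-- Unipotent elements have `p`-power order. -/
theorem pow_of_nilp {V : Type*} [AddCommGroup V] [Module F V] {p : ℕ} [hp : Fact p.Prime]
    [CharP F p] {s : V ≃ₗ[F] V} {n : Module.End F V} (hs : ∀ v, s v = v + n v) {k : ℕ}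
    (hk : n ^ k = 0) : ∃ m : ℕ, s ^ p ^ m = 1 := by
  by_cases hV : Subsingleton V
  · refine ⟨0, ?_⟩
    ext v
    exact Subsingleton.elim _ _
  have hV' : Nontrivial V := not_subsingleton_iff_nontrivial.1 hV
  have hch : CharP (Module.End F V) p :=
    charP_of_injective_algebraMap (algebraMap F (Module.End F V)).injective p
  obtain ⟨m, hm⟩ : ∃ m : ℕ, k ≤ p ^ m := ⟨k, (Nat.lt_pow_self hp.out.one_lt).le⟩
  refine ⟨m, ?_⟩
  have h1 : ((s : V →ₗ[F] V) : Module.End F V) = 1 + n := by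
    ext v
    exact hs v
  have h2 : (1 + n) ^ p ^ m = 1 := by
    rw [add_pow_char_pow_of_commute p m (Commute.one_left n), one_pow]
    rw [← Nat.sub_add_cancel hm, pow_add, hk, mul_zero, add_zero]
  have h3 : ∀ (j : ℕ) (v : V), (s ^ j) v = ((1 + n) ^ j) v := by
    intro j
    induction j with
    | zero => intro v; rfl
    | succ j ih =>
      intro v
      rw [pow_succ, pow_succ]
      show (s ^ j) (s v) = ((1 + n) ^ j) ((1 + n) v)
      rw [ih, ← h1]
      rfl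
  ext v
  rw [h3, h2]
  rfl

/-- Non-orthogonal transvections generate no `p`-group. -/
theorem orth_of_pgroup {p : ℕ} [hp : Fact p.Prime] [CharP F p] (hg : Alt g)
    (hU0 : ∃ u : U, u ≠ 0) {P : Subgroup ((U ⊗[F] W) ≃ₗ[F] (U ⊗[F] W))} (hP : IsPGroup p P)
    {w x : W} {c c' : F} (hc : c ≠ 0) (hc' : c' ≠ 0)
    (h1 : actW U (tv hg w c) ∈ P) (h2 : actW U (tv hg x c') ∈ P) : g w x = 0 := by
  by_contra he
  set e := g w x with hedef
  have hxw : g x w = -e := by rw [hg.neg]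
  obtain ⟨u0, hu0⟩ := hU0
  have hw0 : w ≠ 0 := by
    rintro rfl
    rw [map_zero, LinearMap.zero_apply] at hedef
    exact he hedef
  -- the product
  obtain ⟨k, hk⟩ := hP ⟨actW U (tv hg w c) * actW U (tv hg x c'), P.mul_mem h1 h2⟩
  have hk' : (actW U (tv hg w c * tv hg x c')) ^ p ^ k = 1 := by
    rw [map_mul]
    exact congrArg Subtype.val hk
  set G : W ≃ₗ[F] W := tv hg w c * tv hg x c' with hG
  have hGk : ∀ t, (G ^ p ^ k) t = t := by
    intro t
    have h3 := congrArg (fun s : (U ⊗[F] W) ≃ₗ[F] (U ⊗[F] W) => s (u0 ⊗ₜ t)) hk'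
    rw [← map_pow] at h3
    have h4 : u0 ⊗ₜ[F] (G ^ p ^ k) t = u0 ⊗ₜ t := by
      rw [← actW_tmul]
      exact h3
    -- cancel `u0`
    obtain ⟨φ, hφ⟩ : ∃ φ : Module.Dual F U, φ u0 ≠ 0 := by
      by_contra hcon
      push Not at hcon
      exact hu0 ((Module.forall_dual_apply_eq_zero_iff F u0).1 hcon)
    have h5 := congrArg ((TensorProduct.lid F W).toLinearMap ∘ₗ LinearMap.rTensor W φ) h4
    simp only [LinearMap.comp_apply, LinearMap.rTensor_tmul, LinearEquiv.coe_coe,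
      TensorProduct.lid_tmul] at h5
    exact smul_right_injective W hφ h5
  -- the operator `D = G - 1`
  let D : Module.End F W := (G : W →ₗ[F] W) - 1
  have hDw : ∀ a b : F, D (a • w + b • x) = (-(a * c * c' * e * e) + b * c * e) • w +
      (-(a * c' * e)) • x := by
    intro a b
    have h3 : D (a • w + b • x) = G (a • w + b • x) - (a • w + b • x) := rfl
    have h4 : ∀ y, G y = tv hg w c (tv hg x c' y) := fun y => rfl
    rw [h3, h4, tv_apply, tv_apply]
    simp only [map_add, map_smul, smul_eq_mul, hg.alt, hxw, ← hedef]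
    module
  have hD : ∀ j : ℕ, ∃ a b : F, (a ≠ 0 ∨ b ≠ 0) ∧ (D ^ j) w = a • w + b • x := by
    intro j
    induction j with
    | zero => exact ⟨1, 0, Or.inl one_ne_zero, by simp⟩
    | succ j ih =>
      obtain ⟨a, b, hab, h3⟩ := ih
      refine ⟨_, _, ?_, by rw [pow_succ', Module.End.mul_apply, h3, hDw]⟩
      by_contra hcon
      push Not at hcon
      obtain ⟨h4, h5⟩ := hcon
      have ha : a = 0 := by
        have h6 : a * (c' * e) = 0 := by
          have := neg_eq_zero.1 h5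
          rw [← this]; ring
        exact (mul_eq_zero.1 h6).resolve_right (mul_ne_zero hc' he)
      have hb : b = 0 := by
        rw [ha] at h4
        have h6 : b * (c * e) = 0 := by
          rw [← h4]; ring
        exact (mul_eq_zero.1 h6).resolve_right (mul_ne_zero hc he)
      rcases hab with h | h
      · exact h ha
      · exact h hb
  -- `D ^ (p ^ k) = 0`
  have hD0 : D ^ p ^ k = 0 := by
    have hW' : Nontrivial W := ⟨⟨w, 0, hw0⟩⟩
    have hch : CharP (Module.End F W) p :=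
      charP_of_injective_algebraMap (algebraMap F (Module.End F W)).injective p
    have h3 : D ^ p ^ k = ((G : W →ₗ[F] W) : Module.End F W) ^ p ^ k - 1 := by
      have h4 : ((G : W →ₗ[F] W) : Module.End F W) = D + 1 := by
        show _ = ((G : W →ₗ[F] W) : Module.End F W) - 1 + 1
        rw [sub_add_cancel]
      rw [h4, add_pow_char_pow_of_commute p k (Commute.one_right D), one_pow, add_sub_cancel_right]
    rw [h3, sub_eq_zero]
    have h4 : ∀ (j : ℕ) (v : W), (((G : W →ₗ[F] W) : Module.End F W) ^ j) v = (G ^ j) v := by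
      intro j
      induction j with
      | zero => intro v; rfl
      | succ j ih =>
        intro v
        rw [pow_succ, pow_succ, Module.End.mul_apply, ih]
        rfl
    ext v
    rw [h4, hGk]
    rfl
  obtain ⟨a, b, hab, h3⟩ := hD (p ^ k)
  rw [hD0, LinearMap.zero_apply] at h3
  have h4 := congrArg (g w) h3.symm
  rw [map_add, map_smul, map_smul, hg.alt, smul_zero, zero_add, map_zero, smul_eq_mul,
    ← hedef] at h4
  have hb : b = 0 := (mul_eq_zero.1 h4).resolve_right he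
  rw [hb, zero_smul, add_zero] at h3
  have ha : a = 0 := (smul_eq_zero.1 h3.symm).resolve_right hw0
  rcases hab with h | h
  · exact h ha
  · exact h hb

/-- Elements of `O Q` fixing `U ⊗ L` pointwise. -/
theorem Sp2.nil_of_fix (h : Sp2 f g Q) {L : Submodule F W} (hL : perp g L = L)
    {s : (U ⊗[F] W) ≃ₗ[F] (U ⊗[F] W)} (hs : s ∈ O Q)
    (hfix : ∀ z : U, ∀ x ∈ L, s (z ⊗ₜ x) = z ⊗ₜ x) :
    Nil (UL U L) ((s : (U ⊗[F] W) →ₗ[F] (U ⊗[F] W)) - 1 : Module.End F (U ⊗[F] W)) := by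
  set n : Module.End F (U ⊗[F] W) := (s : (U ⊗[F] W) →ₗ[F] (U ⊗[F] W)) - 1 with hn
  have hn' : ∀ v, n v = s v - v := fun v => rfl
  constructor
  · intro v
    rw [mem_UL_iff h.hg, hL]
    intro w hw
    apply h.hf.nd' _ fun z => ?_
    rw [← h.polW, hn', sub_eq_add_neg, polar_add_right, polar_neg_right]
    have h1 := polar_map hs (z ⊗ₜ w) v
    rw [hfix z w hw] at h1
    rw [h1, add_neg_cancel]
  · intro v hv
    have h1 : UL U L ≤ LinearMap.ker n := by
      refine Submodule.span_le.2 ?_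
      rintro _ ⟨z, t, ht, rfl⟩
      show n (z ⊗ₜ t) = 0
      rw [hn', hfix z t ht, sub_self]
    exact h1 hv

/-- The pointwise stabiliser of `U ⊗ L` in `M`. -/
def RL (M : Subgroup ((U ⊗[F] W) ≃ₗ[F] (U ⊗[F] W))) (L : Submodule F W) :
    Subgroup ((U ⊗[F] W) ≃ₗ[F] (U ⊗[F] W)) where
  carrier := {s | s ∈ M ∧ ∀ z : U, ∀ x ∈ L, s (z ⊗ₜ x) = z ⊗ₜ x}
  one_mem' := ⟨M.one_mem, fun _ _ _ => rfl⟩
  mul_mem' := by
    rintro s r ⟨hs, hs'⟩ ⟨hr, hr'⟩
    refine ⟨M.mul_mem hs hr, fun z x hx => ?_⟩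
    show s (r (z ⊗ₜ x)) = _
    rw [hr' z x hx, hs' z x hx]
  inv_mem' := by
    rintro s ⟨hs, hs'⟩
    refine ⟨M.inv_mem hs, fun z x hx => ?_⟩
    conv_lhs => rw [← hs' z x hx]
    exact LinearEquiv.symm_apply_apply s _

theorem Hy.RL_pgroup (h : Hy f g Q M) {p : ℕ} [Fact p.Prime] [CharP F p] {L : Submodule F W}
    (hL : perp g L = L) : IsPGroup p (RL M L) := by
  rintro ⟨s, hs, hs'⟩
  have h1 := h.nil_of_fix hL (h.hO hs) hs'
  obtain ⟨m, hm⟩ := pow_of_nilp (p := p) (s := s)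
    (n := (s : (U ⊗[F] W) →ₗ[F] (U ⊗[F] W)) - 1) (k := 2) (fun v => by
      show s v = v + (s v - v)
      abel) (by rw [pow_two, h1.mul h1])
  exact ⟨m, Subtype.ext hm⟩

theorem RL_le_Sten (hf : Alt f) (hLZ : LZ g M) (hU0 : ∃ u : U, u ≠ 0) {L : Submodule F W}
    (hL : perp g L = L) : RL M L ≤ Sten F U W := by
  rintro s ⟨hs, hs'⟩
  obtain ⟨ν, hν⟩ := hLZ L hL s hs hs'
  exact mem_Sten_of hf hU0 (A := 1) fun u t => ⟨_, hν u t⟩

theorem Hy.tv_mem_RL (h : Hy f g Q M) {L : Submodule F W} (hL : perp g L = L) {x : W}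
    (hx : x ∈ L) (c : F) : actW U (tv h.hg x c) ∈ RL M L := by
  refine ⟨(h.tvW x c).2, fun z y hy => ?_⟩
  rw [actW_tmul, tv_apply]
  have : g x y = 0 := by
    rw [← hL] at hy
    exact hy x hx
  rw [this, mul_zero, zero_smul, add_zero]

/-- The conjugate of a transvection. -/
theorem Carry.conj_eq (hg : Alt g) {r : (U ⊗[F] W) ≃ₗ[F] (U ⊗[F] W)} {x w : W}
    {A : U ≃ₗ[F] U} {d : F} (hC : Carry f g r x w A d) (c : F) :
    r * actW U (tv hg x c) * r⁻¹ = actW U (tv hg w (c * d)) := by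
  ext v
  show r (actW U (tv hg x c) (r⁻¹ v)) = actW U (tv hg w (c * d)) v
  have hrr : r (r⁻¹ v) = v := LinearEquiv.apply_symm_apply r v
  rw [actW_tv, actW_tv, map_add, map_smul, hC.hN, hrr, smul_smul]

/-- `N_M(S) ≤ Sten` for `p`-subgroups `RL M L ≤ S ≤ Sten`. -/
theorem Hy.normalizer_le (h : Hy f g Q M) {p : ℕ} [Fact p.Prime] [CharP F p] (hLZ : LZ g M)
    (hdim : Module.finrank F U < Module.finrank F W) (hU0 : ∃ u : U, u ≠ 0)
    (hq : 3 ≤ Module.finrank F U ∨ ∃ c : F, c ≠ 0 ∧ c ≠ 1)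
    {L : Submodule F W} (hL : perp g L = L) (hL0 : ∃ x ∈ L, x ≠ 0)
    {S : Subgroup ((U ⊗[F] W) ≃ₗ[F] (U ⊗[F] W))} (hS : IsPGroup p S) (hRS : RL M L ≤ S)
    (hSS : S ≤ Sten F U W) {r : (U ⊗[F] W) ≃ₗ[F] (U ⊗[F] W)} (hr : r ∈ M)
    (hrn : r ∈ Subgroup.normalizer (S : Set ((U ⊗[F] W) ≃ₗ[F] (U ⊗[F] W)))) :
    r ∈ Sten F U W := by
  have key : ∀ r ∈ M, r ∈ Subgroup.normalizer (S : Set ((U ⊗[F] W) ≃ₗ[F] (U ⊗[F] W))) →
      ∀ z : U, ∀ x ∈ L, r (z ⊗ₜ x) ∈ UL U L := by
    intro r hr hrn z x hx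
    by_cases hx0 : x = 0
    · rw [hx0, TensorProduct.tmul_zero, map_zero]
      exact Submodule.zero_mem _
    have h1 : r * actW U (tv h.hg x 1) * r⁻¹ ∈ S :=
      (Subgroup.mem_normalizer_iff.1 hrn _).1 (hRS (h.tv_mem_RL hL hx 1))
    obtain ⟨Y, Z, hYZ⟩ := hSS h1
    obtain ⟨w, A, d, hC⟩ := h.carry hdim hU0 (h.hO hr) hx0 one_ne_zero
      (Y := (Y : U →ₗ[F] U)) (Z := (Z : W →ₗ[F] W)) hYZ
    rw [hC.conj_eq h.hg, one_mul] at h1
    have hwL : w ∈ L := by
      rw [← hL]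
      intro y hy
      by_cases hy0 : y = 0
      · rw [hy0, map_zero, LinearMap.zero_apply]
      exact orth_of_pgroup h.hg hU0 hS one_ne_zero hC.hd (hRS (h.tv_mem_RL hL hy 1)) h1
    rw [hC.hA]
    exact tmul_mem_UL _ hwL
  refine h.lemK hLZ hdim hU0 hq hr hL hL ⟨key r hr hrn, key r⁻¹ (M.inv_mem hr) ?_⟩ hL0
  exact Subgroup.inv_mem _ hrn

/-- Maximal totally isotropic subspaces. -/
theorem Alt.exists_maxiso (hg : Alt g) (w : W) : ∃ L : Submodule F W, w ∈ L ∧ perp g L = L := by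
  -- maximal element among isotropic subspaces containing `w`
  let 𝒮 : Set (Submodule F W) := {L | w ∈ L ∧ L ≤ perp g L}
  have hne : 𝒮.Nonempty := by
    refine ⟨Submodule.span F {w}, Submodule.mem_span_singleton_self w, ?_⟩
    intro z hz y hy
    obtain ⟨a, rfl⟩ := Submodule.mem_span_singleton.1 hz
    obtain ⟨b, rfl⟩ := Submodule.mem_span_singleton.1 hy
    rw [map_smul, map_smul, LinearMap.smul_apply, hg.alt, smul_zero, smul_zero]
  obtain ⟨L, ⟨hwL, hL⟩, hmax⟩ := set_has_maximal_iff_noetherian.2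
    (inferInstance : IsNoetherian F W) 𝒮 hne
  refine ⟨L, hwL, le_antisymm ?_ hL⟩
  intro t ht
  by_contra htL
  have h1 : L ⊔ Submodule.span F {t} ∈ 𝒮 := by
    refine ⟨Submodule.mem_sup_left hwL, ?_⟩
    have htt : ∀ y ∈ L ⊔ Submodule.span F {t}, ∀ z ∈ L ⊔ Submodule.span F {t}, g y z = 0 := by
      intro y hy z hz
      obtain ⟨y1, hy1, y2, hy2, rfl⟩ := Submodule.mem_sup.1 hy
      obtain ⟨z1, hz1, z2, hz2, rfl⟩ := Submodule.mem_sup.1 hz
      obtain ⟨a, rfl⟩ := Submodule.mem_span_singleton.1 hy2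
      obtain ⟨b, rfl⟩ := Submodule.mem_span_singleton.1 hz2
      have e1 : g y1 z1 = 0 := hL hz1 y1 hy1
      have e2 : g y1 t = 0 := ht y1 hy1
      have e3 : g t z1 = 0 := hg.comm_zero (ht z1 hz1)
      simp [e1, e2, e3, hg.alt]
    exact fun z hz y hy => htt y hy z hz
  refine hmax _ h1 (lt_of_le_of_ne le_sup_left ?_)
  intro e
  apply htL
  rw [e]
  exact Submodule.mem_sup_right (Submodule.mem_span_singleton_self t)

/-- The group of elements trivial on `A`, `B / A`, `V / B`. -/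
def Rad {V : Type*} [AddCommGroup V] [Module F V] (A B : Submodule F V) :
    Subgroup (V ≃ₗ[F] V) where
  carrier := {s | (∀ v ∈ A, s v = v) ∧ (∀ v ∈ B, s v - v ∈ A) ∧ (∀ v, s v - v ∈ B)}
  one_mem' := ⟨fun _ _ => rfl, fun v _ => by
    show v - v ∈ A
    rw [sub_self]; exact A.zero_mem, fun v => by
    show v - v ∈ B
    rw [sub_self]; exact B.zero_mem⟩
  mul_mem' := by
    rintro s r ⟨hs1, hs2, hs3⟩ ⟨hr1, hr2, hr3⟩
    refine ⟨fun v hv => ?_, fun v hv => ?_, fun v => ?_⟩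
    · show s (r v) = v
      rw [hr1 v hv, hs1 v hv]
    · show s (r v) - v ∈ A
      have h1 := hr2 v hv
      have h2 : s (r v) - v = (s (r v - v) - (r v - v)) + (r v - v) + (s v - v) := by
        rw [map_sub]; abel
      rw [h2, hs1 _ h1, sub_self, zero_add]
      exact A.add_mem h1 (hs2 v hv)
    · show s (r v) - v ∈ B
      have h2 : s (r v) - v = (s (r v) - r v) + (r v - v) := by abel
      rw [h2]
      exact B.add_mem (hs3 _) (hr3 _)
  inv_mem' := by
    rintro s ⟨hs1, hs2, hs3⟩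
    have hss : ∀ v, s (s⁻¹ v) = v := fun v => LinearEquiv.apply_symm_apply s v
    have h3 : ∀ v, s⁻¹ v - v ∈ B := by
      intro v
      have h1 := hs3 (s⁻¹ v)
      rw [hss] at h1
      rw [← neg_sub]
      exact B.neg_mem h1
    refine ⟨fun v hv => ?_, fun v hv => ?_, h3⟩
    · apply s.injective
      rw [hss, hs1 v hv]
    · have h4 : s⁻¹ v ∈ B := by
        have := B.add_mem (h3 v) hv
        rwa [sub_add_cancel] at this
      have h1 := hs2 _ h4
      rw [hss] at h1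
      rw [← neg_sub]
      exact A.neg_mem h1

theorem Rad_conj {V : Type*} [AddCommGroup V] [Module F V] {A B : Submodule F V}
    {s r : V ≃ₗ[F] V} (hs : s ∈ Rad A B) (hA : ∀ v ∈ A, r v ∈ A) (hA' : ∀ v ∈ A, r⁻¹ v ∈ A)
    (hB : ∀ v ∈ B, r v ∈ B) (hB' : ∀ v ∈ B, r⁻¹ v ∈ B) : r * s * r⁻¹ ∈ Rad A B := by
  obtain ⟨hs1, hs2, hs3⟩ := hs
  have hrr : ∀ v, r (r⁻¹ v) = v := fun v => LinearEquiv.apply_symm_apply r v
  refine ⟨fun v hv => ?_, fun v hv => ?_, fun v => ?_⟩
  · show r (s (r⁻¹ v)) = v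
    rw [hs1 _ (hA' v hv), hrr]
  · show r (s (r⁻¹ v)) - v ∈ A
    have h1 := hA _ (hs2 _ (hB' v hv))
    rwa [map_sub, hrr] at h1
  · show r (s (r⁻¹ v)) - v ∈ B
    have h1 := hB _ (hs3 (r⁻¹ v))
    rwa [map_sub, hrr] at h1

theorem Rad_pgroup {V : Type*} [AddCommGroup V] [Module F V] {p : ℕ} [Fact p.Prime] [CharP F p]
    {A B : Submodule F V} : IsPGroup p (Rad A B) := by
  rintro ⟨s, hs1, hs2, hs3⟩
  obtain ⟨m, hm⟩ := pow_of_nilp (p := p) (s := s)
    (n := (s : V →ₗ[F] V) - 1) (k := 3) (fun v => by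
      show s v = v + (s v - v)
      abel) (by
      have hn : ∀ v, ((s : V →ₗ[F] V) - 1 : Module.End F V) v = s v - v := fun v => rfl
      ext v
      rw [pow_succ, pow_two, Module.End.mul_apply, Module.End.mul_apply, LinearMap.zero_apply,
        hn v, hn (s v - v), hn (s (s v - v) - (s v - v)), hs1 _ (hs2 _ (hs3 v)), sub_self])
  exact ⟨m, Subtype.ext hm⟩

end Cfsg.Agent.H887.TenSp
end

-- part: H887/TenSp/Final
section
/-!
The main theorem: `E Q ≤ M` or `M ≤ Sten`.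
-/

set_option autoImplicit false
set_option linter.unusedSectionVars false
set_option linter.unusedSimpArgs false

namespace Cfsg.Agent.H887.TenSp

open TensorProduct QuadraticMap Cfsg.Agent.LieClassical.OrthCore
  Cfsg.Agent.LieClassical.OrthTrans Cfsg.Agent.ClassicalGeometry.OrthAutBasic
  Cfsg.Agent.H887.SiegelMethod

variable {F U W : Type*} [Field F] [AddCommGroup U] [Module F U] [AddCommGroup W] [Module F W]
  [FiniteDimensional F U] [FiniteDimensional F W]
  {f : LinearMap.BilinForm F U} {g : LinearMap.BilinForm F W}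
  {Q : QuadraticForm F (U ⊗[F] W)} {M : Subgroup ((U ⊗[F] W) ≃ₗ[F] (U ⊗[F] W))}

/-- The stabiliser of `U ⊗ w` in `M`. -/
def KW (M : Subgroup ((U ⊗[F] W) ≃ₗ[F] (U ⊗[F] W))) (w : W) :
    Subgroup ((U ⊗[F] W) ≃ₗ[F] (U ⊗[F] W)) where
  carrier := {r | r ∈ M ∧ ∃ A : U ≃ₗ[F] U, ∀ z, r (z ⊗ₜ w) = A z ⊗ₜ w}
  one_mem' := ⟨M.one_mem, 1, fun _ => rfl⟩
  mul_mem' := by
    rintro s r ⟨hs, A, hA⟩ ⟨hr, B, hB⟩
    refine ⟨M.mul_mem hs hr, A * B, fun z => ?_⟩
    show s (r (z ⊗ₜ w)) = _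
    rw [hB, hA]
    rfl
  inv_mem' := by
    rintro s ⟨hs, A, hA⟩
    refine ⟨M.inv_mem hs, A⁻¹, fun z => ?_⟩
    apply s.injective
    rw [hA]
    have e1 : A (A⁻¹ z) = z := LinearEquiv.apply_symm_apply A z
    rw [e1]
    exact LinearEquiv.apply_symm_apply s _

/-- Images of `UL p` under maps given on pure tensors. -/
theorem UL_le_iff {p : Submodule F W} {X : Submodule F (U ⊗[F] W)} :
    UL U p ≤ X ↔ ∀ z : U, ∀ t ∈ p, z ⊗ₜ t ∈ X := by
  constructor
  · intro h z t ht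
    exact h (tmul_mem_UL z ht)
  · intro h
    refine Submodule.span_le.2 ?_
    rintro _ ⟨z, t, ht, rfl⟩
    exact h z t ht

theorem Hy.KW_le (h : Hy f g Q M) {p : ℕ} [Fact p.Prime] [CharP F p]
    [Finite ((U ⊗[F] W) ≃ₗ[F] (U ⊗[F] W))] (hLZ : LZ g M)
    (hdim : Module.finrank F U < Module.finrank F W) (hU0 : ∃ u : U, u ≠ 0)
    (hq : 3 ≤ Module.finrank F U ∨ ∃ c : F, c ≠ 0 ∧ c ≠ 1) {w : W} (hw : w ≠ 0) :
    KW M w ≤ Sten F U W := by
  obtain ⟨L, hwL, hL⟩ := h.hg.exists_maxiso w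
  have hL0 : ∃ x ∈ L, x ≠ 0 := ⟨w, hwL, hw⟩
  -- the normal `p`-subgroup
  set A0 : Submodule F (U ⊗[F] W) := UL U (Submodule.span F {w}) with hA0
  set B0 : Submodule F (U ⊗[F] W) := UL U (perp g (Submodule.span F {w})) with hB0
  have hspan : ∀ {y : W}, y ∈ perp g (Submodule.span F {w}) ↔ g w y = 0 := by
    intro y
    constructor
    · intro hy
      exact hy w (Submodule.mem_span_singleton_self w)
    · intro hy z hz
      obtain ⟨c, rfl⟩ := Submodule.mem_span_singleton.1 hz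
      rw [map_smul, LinearMap.smul_apply, hy, smul_zero]
  have hB0iff : ∀ v : U ⊗[F] W, v ∈ B0 ↔ kW U g w v = 0 := by
    intro v
    rw [hB0, mem_UL_iff h.hg, h.hg.perp_perp]
    constructor
    · intro hv
      exact hv w (Submodule.mem_span_singleton_self w)
    · intro hv y hy
      obtain ⟨c, rfl⟩ := Submodule.mem_span_singleton.1 hy
      rw [kW_smul, hv, smul_zero]
  have hstab : ∀ r ∈ KW M w, (∀ v ∈ A0, r v ∈ A0) ∧ (∀ v ∈ B0, r v ∈ B0) := by
    rintro r ⟨hr, A, hA⟩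
    constructor
    · intro v hv
      have h1 : A0 ≤ A0.comap (r : (U ⊗[F] W) →ₗ[F] (U ⊗[F] W)) := by
        rw [hA0, UL_le_iff]
        intro z t ht
        obtain ⟨c, rfl⟩ := Submodule.mem_span_singleton.1 ht
        show r (z ⊗ₜ (c • w)) ∈ UL U (Submodule.span F {w})
        rw [TensorProduct.tmul_smul, map_smul, hA]
        exact Submodule.smul_mem _ _ (tmul_mem_UL _ (Submodule.mem_span_singleton_self w))
      exact h1 hv
    · intro v hv
      rw [hB0iff] at hv ⊢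
      apply h.hf.nd' _ fun z => ?_
      rw [← h.polW]
      have h1 : z ⊗ₜ[F] w = r (A⁻¹ z ⊗ₜ w) := by
        rw [hA]
        have e1 : A (A⁻¹ z) = z := LinearEquiv.apply_symm_apply A z
        rw [e1]
      rw [h1, polar_map (h.hO hr), h.polW, hv, map_zero]
  have hY : M ⊓ Rad A0 B0 ≤ M ⊓ Sten F U W := by
    refine sylow_normal_le (p := p) (K := KW M w) (R₀ := RL M L) (h.RL_pgroup hL) ?_ ?_ ?_ ?_ ?_
    · refine le_inf ?_ (le_inf (fun s hs => hs.1) (RL_le_Sten h.hf hLZ hU0 hL))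
      rintro s ⟨hs, hs'⟩
      exact ⟨hs, 1, fun z => hs' z w hwL⟩
    · intro S hS hRS hSK r hr hrn
      refine ⟨hr.1, h.normalizer_le hLZ hdim hU0 hq hL hL0 hS hRS ?_ hr.1 hrn⟩
      exact hSK.trans (inf_le_right.trans inf_le_right)
    · exact (Rad_pgroup (p := p) (A := A0) (B := B0)).to_le inf_le_right
    · rintro s ⟨hs, hs1, -, -⟩
      exact ⟨hs, 1, fun z => hs1 _ (tmul_mem_UL z (Submodule.mem_span_singleton_self w))⟩
    · intro k hk s hs
      refine ⟨M.mul_mem (M.mul_mem hk.1 hs.1) (M.inv_mem hk.1), ?_⟩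
      have hk' := (KW M w).inv_mem hk
      exact Rad_conj hs.2 (hstab k hk).1 (hstab _ hk').1 (hstab k hk).2 (hstab _ hk').2
  -- now the theorem
  intro r hr
  obtain ⟨hrM, A, hA⟩ := id hr
  have hrr : ∀ v, r (r⁻¹ v) = v := fun v => LinearEquiv.apply_symm_apply r v
  have hrr' : ∀ v, r⁻¹ (r v) = v := fun v => LinearEquiv.symm_apply_apply r v
  obtain ⟨u0, hu0⟩ := hU0
  -- the subspace `L'`
  let L' : Submodule F W :=
    { carrier := {t | ∀ z : U, r⁻¹ (z ⊗ₜ t) ∈ UL U L}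
      zero_mem' := fun z => by
        rw [TensorProduct.tmul_zero, map_zero]
        exact Submodule.zero_mem _
      add_mem' := by
        intro a b ha hb z
        rw [TensorProduct.tmul_add, map_add]
        exact Submodule.add_mem _ (ha z) (hb z)
      smul_mem' := by
        intro c a ha z
        rw [TensorProduct.tmul_smul, map_smul]
        exact Submodule.smul_mem _ _ (ha z) }
  have hL'iff : ∀ t, t ∈ L' ↔ ∀ z : U, r⁻¹ (z ⊗ₜ t) ∈ UL U L := fun t => Iff.rfl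
  have hAinv : ∀ z, r⁻¹ (z ⊗ₜ w) = A⁻¹ z ⊗ₜ w := by
    intro z
    apply r.injective
    rw [hrr, hA]
    have e1 : A (A⁻¹ z) = z := LinearEquiv.apply_symm_apply A z
    rw [e1]
  have hwL' : w ∈ L' := by
    intro z
    rw [hAinv]
    exact tmul_mem_UL _ hwL
  have hfwd : ∀ z : U, ∀ x ∈ L, r (z ⊗ₜ x) ∈ UL U L' := by
    intro z x hx
    by_cases hxw : x ∈ Submodule.span F {w}
    · obtain ⟨c, rfl⟩ := Submodule.mem_span_singleton.1 hxw
      rw [TensorProduct.tmul_smul, map_smul, hA]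
      exact Submodule.smul_mem _ _ (tmul_mem_UL _ hwL')
    · have hwx : g w x = 0 := by
        rw [← hL] at hx
        exact hx w hwL
      have hxw0 := h.hg.comm_zero hwx
      -- the short root element
      have hsr := h.shortW hxw0 1
      rw [one_smul] at hsr
      obtain ⟨s, hsM, hs⟩ := hsr
      have hsn : ∀ v, s v = v + (kW U g w v ⊗ₜ x + kW U g x v ⊗ₜ w) := by
        intro v
        rw [hs, TensorProduct.map_add_right, LinearMap.add_apply, map_E1_right, map_E1_right]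
        rfl
      have hsR : s ∈ Rad A0 B0 := by
        refine ⟨fun v hv => ?_, fun v hv => ?_, fun v => ?_⟩
        · have h1 : A0 ≤ LinearMap.eqLocus (s : (U ⊗[F] W) →ₗ[F] (U ⊗[F] W)) LinearMap.id := by
            rw [hA0, UL_le_iff]
            intro z' t ht
            obtain ⟨c, rfl⟩ := Submodule.mem_span_singleton.1 ht
            show s (z' ⊗ₜ (c • w)) = z' ⊗ₜ (c • w)
            rw [hsn, kW_tmul, kW_tmul, map_smul, map_smul, h.hg.alt, hxw0, smul_zero,
              zero_smul, TensorProduct.zero_tmul, TensorProduct.zero_tmul, add_zero, add_zero]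
          exact h1 hv
        · rw [hsn, (hB0iff v).1 hv, TensorProduct.zero_tmul, zero_add, add_sub_cancel_left]
          exact tmul_mem_UL _ (Submodule.mem_span_singleton_self w)
        · rw [hsn, add_sub_cancel_left]
          exact Submodule.add_mem _ (tmul_mem_UL _ (hspan.2 hwx))
            (tmul_mem_UL _ (hspan.2 (h.hg.alt w)))
      -- its conjugate
      have hk' := (KW M w).inv_mem hr
      have hconj : r * s * r⁻¹ ∈ M ⊓ Rad A0 B0 :=
        ⟨M.mul_mem (M.mul_mem hrM hsM) (M.inv_mem hrM),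
          Rad_conj hsR (hstab r hr).1 (hstab _ hk').1 (hstab r hr).2 (hstab _ hk').2⟩
      obtain ⟨-, Y, Z, hYZ⟩ := hY hconj
      have hfixw : ∀ z, Y z ⊗ₜ[F] Z w = z ⊗ₜ w := by
        intro z
        rw [← hYZ]
        exact hconj.2.1 _ (tmul_mem_UL z (Submodule.mem_span_singleton_self w))
      have hZw : Z w ≠ 0 := fun e => hw ((LinearEquiv.map_eq_zero_iff Z).1 e)
      obtain ⟨y0, hy0⟩ := h.hg.exists_ne' hZw
      have hYs : ∀ z, Y z = g y0 w • z := by
        intro z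
        have h1 := congrArg (kW U g y0) (hfixw z)
        rwa [kW_tmul, kW_tmul, hy0, one_smul] at h1
      let ζ : Module.End F W := g y0 w • (Z : W →ₗ[F] W) - 1
      have hζ : ∀ v : U ⊗[F] W, TensorProduct.map 1 ζ v =
          r (kW U g w (r⁻¹ v) ⊗ₜ x + kW U g x (r⁻¹ v) ⊗ₜ w) := by
        intro v
        have h0 : ∀ v, (r * s * r⁻¹) v = v +
            r (kW U g w (r⁻¹ v) ⊗ₜ x + kW U g x (r⁻¹ v) ⊗ₜ w) := by
          intro v
          show r (s (r⁻¹ v)) = _
          rw [hsn, map_add r, hrr]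
        have h1 : ∀ v, (r * s * r⁻¹) v = v + TensorProduct.map 1 ζ v := by
          intro v
          induction v with
          | zero => simp
          | tmul z t =>
            have e1 : ζ t = g y0 w • Z t - t := rfl
            rw [hYZ, hYs, map_tmul, Module.End.one_apply, e1, TensorProduct.tmul_sub,
              TensorProduct.tmul_smul, TensorProduct.smul_tmul']
            abel
          | add v v' hv hv' => rw [map_add, hv, hv', map_add]; abel
        have h2 := h1 v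
        rw [h0] at h2
        exact (add_left_cancel h2).symm
      -- `ζ t ∈ L'`
      have hζL' : ∀ t, ζ t ∈ L' := by
        intro t z'
        have h1 := hζ (z' ⊗ₜ t)
        rw [map_tmul, Module.End.one_apply] at h1
        rw [h1, hrr']
        exact Submodule.add_mem _ (tmul_mem_UL _ hx) (tmul_mem_UL _ hwL)
      have hζUL : ∀ v : U ⊗[F] W, TensorProduct.map 1 ζ v ∈ UL U L' := by
        intro v
        induction v with
        | zero => rw [map_zero]; exact Submodule.zero_mem _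
        | tmul z t => rw [map_tmul]; exact tmul_mem_UL _ (hζL' t)
        | add v v' hv hv' => rw [map_add]; exact Submodule.add_mem _ hv hv'
      obtain ⟨y, hy, hy'⟩ := h.hg.sep1 (not_mem_symm hxw hw)
      -- `g y w = 1`, `g y x = 0`
      have h1 := hζUL (r (z ⊗ₜ (-y)))
      rw [hζ, hrr', kW_tmul, kW_tmul, map_neg, map_neg, h.hg.comm_zero hy', neg_zero, zero_smul,
        TensorProduct.zero_tmul, add_zero, h.hg.neg w y, hy, neg_neg, one_smul] at h1
      exact h1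
  have hperp : perp g L' = L' := by
    apply le_antisymm
    · intro t ht z
      rw [mem_UL_iff h.hg, hL]
      intro y hy
      apply h.hf.nd' _ fun z' => ?_
      rw [← h.polW]
      have h1 := polar_map (h.hO hrM) (z' ⊗ₜ y) (r⁻¹ (z ⊗ₜ t))
      rw [hrr] at h1
      rw [← h1, polar_comm, h.polW]
      have h2 := hfwd z' y hy
      rw [mem_UL_iff h.hg] at h2
      rw [h2 t ht, map_zero]
    · intro t ht t' ht'
      obtain ⟨u1, hu1⟩ := h.hf.exists_ne hu0
      have h1 := polar_map ((O Q).inv_mem (h.hO hrM)) (u0 ⊗ₜ t') (u1 ⊗ₜ t)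
      rw [h.polar_UL hL (ht' u0) (ht u1), h.pol, hu1, one_mul] at h1
      exact h1.symm
  exact h.lemK hLZ hdim ⟨u0, hu0⟩ hq hrM hL hperp ⟨hfwd, fun z x hx => hx z⟩ hL0

theorem actW_mem_Sten (B : W ≃ₗ[F] W) : actW U B ∈ Sten F U W :=
  ⟨1, B, fun x y => actW_tmul B x y⟩

/-- An element of `M` mapping some `U ⊗ w` to some `U ⊗ w'` is in `Sten`. -/
theorem Hy.mem_of_carry (h : Hy f g Q M) {p : ℕ} [Fact p.Prime] [CharP F p]
    [Finite ((U ⊗[F] W) ≃ₗ[F] (U ⊗[F] W))] (hLZ : LZ g M)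
    (hdim : Module.finrank F U < Module.finrank F W) (hU0 : ∃ u : U, u ≠ 0)
    (hq : 3 ≤ Module.finrank F U ∨ ∃ c : F, c ≠ 0 ∧ c ≠ 1) {w w' : W} (hw : w ≠ 0)
    (hw' : w' ≠ 0) {r : (U ⊗[F] W) ≃ₗ[F] (U ⊗[F] W)} (hr : r ∈ M) {A : U ≃ₗ[F] U}
    (hA : ∀ z, r (z ⊗ₜ w) = A z ⊗ₜ w') : r ∈ Sten F U W := by
  obtain ⟨B, hB, hB'⟩ := h.transW hw' hw
  have h1 : actW U B * r ∈ KW M w := by
    refine ⟨M.mul_mem hB.2 hr, A, fun z => ?_⟩
    show actW U B (r (z ⊗ₜ w)) = _
    rw [hA, actW_tmul, hB']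
  have h2 := h.KW_le (p := p) hLZ hdim hU0 hq hw h1
  have h3 := (Sten F U W).mul_mem ((Sten F U W).inv_mem (actW_mem_Sten (U := U) B)) h2
  rwa [inv_mul_cancel_left] at h3

/-- Each vector is killed by some `kW w`. -/
theorem exists_kW_zero (hdim : Module.finrank F U < Module.finrank F W) (v : U ⊗[F] W) :
    ∃ w : W, w ≠ 0 ∧ kW U g w v = 0 := by
  have h1 : LinearMap.ker (kWlin U g v) ≠ ⊥ := LinearMap.ker_ne_bot_of_finrank_lt hdim
  obtain ⟨w, hw, hw0⟩ := Submodule.exists_mem_ne_zero_of_ne_bot h1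
  exact ⟨w, hw0, hw⟩

/-- **Main theorem.** -/
theorem Hy.main (h : Hy f g Q M) {p : ℕ} [hp : Fact p.Prime] [CharP F p] [Finite F]
    [Finite ((U ⊗[F] W) ≃ₗ[F] (U ⊗[F] W))] (hU : 2 ≤ Module.finrank F U)
    (hdim : Module.finrank F U < Module.finrank F W) (hW : 5 ≤ Module.finrank F W)
    (hq : 3 ≤ Module.finrank F U ∨ ∃ c : F, c ≠ 0 ∧ c ≠ 1) (hbig : Big Q) :
    E Q ≤ M ∨ M ≤ Sten F U W := by
  have hU0 : ∃ u : U, u ≠ 0 := by
    by_contra hcon
    push Not at hcon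
    have : Subsingleton U := ⟨fun a b => by rw [hcon a, hcon b]⟩
    have := Module.finrank_zero_of_subsingleton (R := F) (M := U)
    omega
  by_cases hb : Beta g Q M
  · exact Or.inl (h.E_le_of_beta hW hU0 hbig hb)
  right
  have hLZ := h.LZ_of hU hW hq hb
  -- the TI property
  let D : Set ((U ⊗[F] W) ≃ₗ[F] (U ⊗[F] W)) :=
    {s | ∃ w : W, w ≠ 0 ∧ s = actW U (tv h.hg w 1)}
  have hD : ∀ s ∈ D, s ∈ M ⊓ Sten F U W ∧ ∃ k : ℕ, s ^ p ^ k = 1 := by
    rintro _ ⟨w, hw, rfl⟩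
    refine ⟨⟨(h.tvW w 1).2, actW_mem_Sten _⟩, ?_⟩
    obtain ⟨L, hwL, hL⟩ := h.hg.exists_maxiso w
    obtain ⟨k, hk⟩ := h.RL_pgroup (p := p) hL ⟨_, h.tv_mem_RL hL hwL 1⟩
    exact ⟨k, congrArg Subtype.val hk⟩
  have hTI : ∀ s ∈ D, ∀ r ∈ M, r * s * r⁻¹ ∈ M ⊓ Sten F U W → r ∈ M ⊓ Sten F U W := by
    rintro _ ⟨w, hw, rfl⟩ r hr ⟨-, Y, Z, hYZ⟩
    obtain ⟨w', A, d, hC⟩ := h.carry hdim hU0 (h.hO hr) hw one_ne_zero
      (Y := (Y : U →ₗ[F] U)) (Z := (Z : W →ₗ[F] W)) hYZ
    exact ⟨hr, h.mem_of_carry (p := p) hLZ hdim hU0 hq hw hC.hw hr hC.hA⟩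
  -- transfer for pointwise stabilisers
  have transfer : ∀ r ∈ M, ∀ (X : Set (U ⊗[F] W)) (w w' : W), w ≠ 0 → w' ≠ 0 →
      (∀ v ∈ X, kW U g w v = 0) → (∀ v ∈ X, kW U g w' (r v) = 0) →
      ∃ s ∈ Sten F U W, ∀ v ∈ X, r v = s v := by
    intro r hr X w w' hw hw' hX hX'
    let P : Subgroup ((U ⊗[F] W) ≃ₗ[F] (U ⊗[F] W)) :=
      { carrier := {s | s ∈ M ∧ ∀ v ∈ X, s (r v) = r v}
        one_mem' := ⟨M.one_mem, fun _ _ => rfl⟩
        mul_mem' := by
          rintro s t ⟨hs, hs'⟩ ⟨ht, ht'⟩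
          refine ⟨M.mul_mem hs ht, fun v hv => ?_⟩
          show s (t (r v)) = _
          rw [ht' v hv, hs' v hv]
        inv_mem' := by
          rintro s ⟨hs, hs'⟩
          refine ⟨M.inv_mem hs, fun v hv => ?_⟩
          conv_lhs => rw [← hs' v hv]
          exact LinearEquiv.symm_apply_apply s _ }
    have h1 : actW U (tv h.hg w' 1) ∈ P := by
      refine ⟨(h.tvW w' 1).2, fun v hv => ?_⟩
      rw [actW_tv, hX' v hv, TensorProduct.zero_tmul, smul_zero, add_zero]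
    have h2 : r * actW U (tv h.hg w 1) * r⁻¹ ∈ P := by
      refine ⟨M.mul_mem (M.mul_mem hr (h.tvW w 1).2) (M.inv_mem hr), fun v hv => ?_⟩
      show r (actW U (tv h.hg w 1) (r⁻¹ (r v))) = r v
      have e : r⁻¹ (r v) = v := LinearEquiv.symm_apply_apply r v
      rw [e, actW_tv, hX v hv, TensorProduct.zero_tmul, smul_zero, add_zero]
    obtain ⟨m, hm, s, hs, e⟩ := Cfsg.Agent.H880.ti_transfer_one hp.out M (M ⊓ Sten F U W)
      inf_le_left D hD hTI P ⟨w', hw', rfl⟩ ⟨w, hw, rfl⟩ hr h1 h2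
    refine ⟨s, hs.2, fun v hv => ?_⟩
    have h3 := hm.2 v hv
    have h4 : r v = m (s v) := by rw [e]; rfl
    apply m.injective
    rw [h3, h4]
  -- pure tensors are mapped to pure tensors
  have hpure : ∀ r ∈ M, ∀ (z : U) (t : W), ∃ (z' : U) (t' : W), r (z ⊗ₜ t) = z' ⊗ₜ t' := by
    intro r hr z t
    obtain ⟨w, hw, hw'⟩ := exists_kW_zero (g := g) hdim (z ⊗ₜ t)
    obtain ⟨w', hw1, hw1'⟩ := exists_kW_zero (g := g) hdim (r (z ⊗ₜ t))
    obtain ⟨s, ⟨A, B, hAB⟩, hs⟩ := transfer r hr {z ⊗ₜ t} w w' hw hw1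
      (fun v hv => by rw [Set.mem_singleton_iff.1 hv, hw'])
      (fun v hv => by rw [Set.mem_singleton_iff.1 hv, hw1'])
    exact ⟨A z, B t, by rw [hs _ (Set.mem_singleton _), hAB]⟩
  intro r hr
  obtain ⟨w, hw⟩ : ∃ w : W, w ≠ 0 := by
    obtain ⟨w, hw, -⟩ := exists_kW_zero (g := g) hdim (0 : U ⊗[F] W)
    exact ⟨w, hw⟩
  have hch : ∀ z : U, ∃ (z' : U) (t' : W), r (z ⊗ₜ w) = z' ⊗ₜ t' := fun z => hpure r hr z w
  choose a b hab using hch
  -- a common orthogonal vector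
  obtain ⟨w', hw', hw2⟩ : ∃ w' : W, w' ≠ 0 ∧ ∀ z : U, kW U g w' (r (z ⊗ₜ w)) = 0 := by
    obtain ⟨z1, hz1⟩ := hU0
    have hr1 : r (z1 ⊗ₜ w) ≠ 0 := fun e =>
      h.hf.tmul_ne_zero hz1 hw ((LinearEquiv.map_eq_zero_iff r).1 e)
    have ha1 : a z1 ≠ 0 := by
      intro e
      apply hr1
      rw [hab, e, TensorProduct.zero_tmul]
    have hb1 : b z1 ≠ 0 := by
      intro e
      apply hr1
      rw [hab, e, TensorProduct.tmul_zero]
    -- a dichotomy for two vectors
    have dich : ∀ z z' : U, r (z ⊗ₜ w) ≠ 0 → r (z' ⊗ₜ w) ≠ 0 →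
        b z' ∈ Submodule.span F {b z} ∨ a z' ∈ Submodule.span F {a z} := by
      intro z z' hz hz'
      by_contra hcon
      push Not at hcon
      obtain ⟨hb', ha'⟩ := hcon
      have haz : a z ≠ 0 := by
        intro e
        apply hz
        rw [hab, e, TensorProduct.zero_tmul]
      have hbz : b z ≠ 0 := by
        intro e
        apply hz
        rw [hab, e, TensorProduct.tmul_zero]
      have hsum : a (z + z') ⊗ₜ[F] b (z + z') = a z ⊗ₜ b z + a z' ⊗ₜ b z' := by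
        rw [← hab, ← hab, ← hab, TensorProduct.add_tmul, map_add]
      obtain ⟨y1, hy1, hy1'⟩ := h.hg.sep1 hb'
      obtain ⟨y0, hy0, hy0'⟩ := h.hg.sep1 (not_mem_symm hb' hbz)
      have e1 := congrArg (kW U g y1) hsum
      have e0 := congrArg (kW U g y0) hsum
      rw [map_add, kW_tmul, kW_tmul, kW_tmul, hy1, hy1', zero_smul, one_smul, zero_add] at e1
      rw [map_add, kW_tmul, kW_tmul, kW_tmul, hy0, hy0', zero_smul, one_smul, add_zero] at e0
      -- `a z' = c1 a(z+z')`, `a z = c0 a(z+z')`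
      have hc0 : g y0 (b (z + z')) ≠ 0 := by
        intro e
        rw [e, zero_smul] at e0
        exact haz e0.symm
      apply ha'
      refine Submodule.mem_span_singleton.2 ⟨g y1 (b (z + z')) * (g y0 (b (z + z')))⁻¹, ?_⟩
      rw [← e1, ← e0, smul_smul, mul_assoc, inv_mul_cancel₀ hc0, mul_one]
    by_cases hall : ∀ z, b z ∈ Submodule.span F {b z1} ∨ r (z ⊗ₜ w) = 0
    · refine ⟨b z1, hb1, fun z => ?_⟩
      rcases hall z with h1 | h1
      · obtain ⟨c, hc⟩ := Submodule.mem_span_singleton.1 h1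
        rw [hab, kW_tmul, ← hc, map_smul, h.hg.alt, smul_zero, zero_smul]
      · rw [h1, map_zero]
    · push Not at hall
      obtain ⟨z2, hb2, hr2⟩ := hall
      have ha2 : a z2 ∈ Submodule.span F {a z1} := (dich z1 z2 hr1 hr2).resolve_left hb2
      have haz2 : a z2 ≠ 0 := by
        intro e
        apply hr2
        rw [hab, e, TensorProduct.zero_tmul]
      -- all `a z ∈ ⟨a z1⟩`
      have hspan21 : Submodule.span F {a z2} ≤ Submodule.span F {a z1} := by
        rw [Submodule.span_le, Set.singleton_subset_iff]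
        exact ha2
      have hall2 : ∀ z, ∃ t : W, r (z ⊗ₜ w) = a z1 ⊗ₜ t := by
        intro z
        by_cases hz : r (z ⊗ₜ w) = 0
        · exact ⟨0, by rw [hz, TensorProduct.tmul_zero]⟩
        have hmem : a z ∈ Submodule.span F {a z1} := by
          rcases dich z1 z hr1 hz with h1 | h1
          · rcases dich z2 z hr2 hz with h2 | h2
            · -- `b z ∈ ⟨b z1⟩ ∩ ⟨b z2⟩ = 0`
              exfalso
              obtain ⟨c, hc⟩ := Submodule.mem_span_singleton.1 h1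
              obtain ⟨d, hd⟩ := Submodule.mem_span_singleton.1 h2
              have hd0 : d ≠ 0 := by
                rintro rfl
                rw [zero_smul] at hd
                apply hz
                rw [hab, ← hd, TensorProduct.tmul_zero]
              apply hb2
              refine Submodule.mem_span_singleton.2 ⟨d⁻¹ * c, ?_⟩
              rw [mul_smul, hc, ← hd, smul_smul, inv_mul_cancel₀ hd0, one_smul]
            · exact hspan21 h2
          · exact h1
        obtain ⟨c, hc⟩ := Submodule.mem_span_singleton.1 hmem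
        exact ⟨c • b z, by rw [hab, ← hc, TensorProduct.smul_tmul]⟩
      obtain ⟨y, hy⟩ := h.hf.exists_ne' ha1
      let β : U →ₗ[F] W := kU f W y ∘ₗ (r : (U ⊗[F] W) →ₗ[F] (U ⊗[F] W)) ∘ₗ
        (TensorProduct.mk F U W).flip w
      have hβ : ∀ z, r (z ⊗ₜ w) = a z1 ⊗ₜ β z := by
        intro z
        obtain ⟨t, ht⟩ := hall2 z
        have : β z = kU f W y (r (z ⊗ₜ w)) := rfl
        rw [this, ht, kU_tmul, hy, one_smul]
      have hrange : LinearMap.range β ≠ ⊤ := by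
        intro e
        have h1 := LinearMap.finrank_range_le β
        rw [e, finrank_top] at h1
        omega
      obtain ⟨w', hw', hw2⟩ := h.hg.exists_perp hrange
      refine ⟨w', hw', fun z => ?_⟩
      rw [hβ, kW_tmul, hw2 _ (LinearMap.mem_range_self β z), zero_smul]
  obtain ⟨s, ⟨A, B, hAB⟩, hs⟩ := transfer r hr {v | ∃ z : U, v = z ⊗ₜ w} w w' hw hw'
    (by
      rintro _ ⟨z, rfl⟩
      rw [kW_tmul, h.hg.alt, zero_smul])
    (by
      rintro _ ⟨z, rfl⟩
      exact hw2 z)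
  have hBw : B w ≠ 0 := fun e => hw ((LinearEquiv.map_eq_zero_iff B).1 e)
  exact h.mem_of_carry (p := p) hLZ hdim hU0 hq hw hBw hr (A := A)
    fun z => by rw [hs _ ⟨z, rfl⟩, hAB]

end Cfsg.Agent.H887.TenSp
end

-- part: H887/TenSp/Wrap
section
/-!
Frozen-vocabulary form: the stabiliser in `Ω` of a tensor decomposition symplectic ⊗ symplectic,
`n₁ < n₂`, is maximal.
-/

set_option autoImplicit false
set_option linter.unusedSectionVars false
set_option linter.unusedSimpArgs false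

namespace Cfsg.Agent.H887.TenSp

open TensorProduct QuadraticMap Cfsg.Agent.LieClassical.OrthCore
  Cfsg.Agent.LieClassical.OrthTrans Cfsg.Agent.ClassicalGeometry.OrthAutBasic
  Cfsg.Agent.H887.SiegelMethod Cfsg.Agent.H887.OmegaBridge

section Transport

variable {F X Y : Type*} [Field F] [AddCommGroup X] [Module F X] [AddCommGroup Y] [Module F Y]

/-- Conjugation by a linear equivalence. -/
def conjE (φ : X ≃ₗ[F] Y) : (X ≃ₗ[F] X) ≃* (Y ≃ₗ[F] Y) where
  toFun := fun s => (φ.symm.trans s).trans φ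
  invFun := fun s => (φ.trans s).trans φ.symm
  left_inv := fun s => by ext v; simp
  right_inv := fun s => by ext v; simp
  map_mul' := fun s r => by ext v; simp

theorem conjE_apply (φ : X ≃ₗ[F] Y) (s : X ≃ₗ[F] X) (v : Y) :
    conjE φ s v = φ (s (φ.symm v)) := rfl

theorem conjE_symm_apply (φ : X ≃ₗ[F] Y) (s : Y ≃ₗ[F] Y) (v : X) :
    (conjE φ).symm s v = φ.symm (s (φ v)) := rfl

theorem conjE_T (φ : X ≃ₗ[F] Y) (Q : QuadraticForm F Y) (Q' : QuadraticForm F X)
    (hQ : ∀ v, Q' v = Q (φ v)) (u w : X) : conjE φ (T Q' u w) = T Q (φ u) (φ w) := by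
  have hpol : ∀ a b, polar Q (φ a) (φ b) = polar Q' a b := by
    intro a b
    rw [polar, polar, hQ, hQ, hQ, map_add φ]
  by_cases h : Q' u = 0 ∧ polar Q' u w = 0
  · ext v
    rw [conjE_apply, T_apply h.1 h.2, T_apply (by rw [← hQ]; exact h.1)
      (by rw [hpol]; exact h.2)]
    have e : v = φ (φ.symm v) := (φ.apply_symm_apply v).symm
    conv_rhs => rw [e]
    simp only [map_add, map_sub, map_smul, hpol, ← hQ]
  · rw [T_eq_one h, T_eq_one (by rw [← hQ, hpol]; exact h), map_one]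

theorem conjE_mem_E (φ : X ≃ₗ[F] Y) (Q : QuadraticForm F Y) (Q' : QuadraticForm F X)
    (hQ : ∀ v, Q' v = Q (φ v)) {s : X ≃ₗ[F] X} (hs : s ∈ E Q') : conjE φ s ∈ E Q := by
  have h1 : E Q' ≤ (E Q).comap (conjE φ).toMonoidHom := by
    rw [E, Subgroup.closure_le]
    rintro _ ⟨u, w, hu, hw, rfl⟩
    show conjE φ (siegel Q' u w hu hw) ∈ E Q
    rw [← T_eq hu hw, conjE_T φ Q Q' hQ]
    exact T_mem_E _ _
  exact h1 hs

theorem conjE_mem_E_iff (φ : X ≃ₗ[F] Y) (Q : QuadraticForm F Y) (Q' : QuadraticForm F X)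
    (hQ : ∀ v, Q' v = Q (φ v)) {s : X ≃ₗ[F] X} : conjE φ s ∈ E Q ↔ s ∈ E Q' := by
  refine ⟨fun h => ?_, conjE_mem_E φ Q Q' hQ⟩
  have h1 := conjE_mem_E φ.symm Q' Q (fun v => by rw [hQ, φ.apply_symm_apply]) h
  have e : conjE φ.symm (conjE φ s) = s := by
    ext v
    simp [conjE_apply]
  rwa [e] at h1

end Transport

variable {F U W : Type*} [Field F] [AddCommGroup U] [Module F U] [AddCommGroup W] [Module F W]
  [FiniteDimensional F U] [FiniteDimensional F W]
  {f : LinearMap.BilinForm F U} {g : LinearMap.BilinForm F W}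
  {Q : QuadraticForm F (U ⊗[F] W)} {M : Subgroup ((U ⊗[F] W) ≃ₗ[F] (U ⊗[F] W))}

/-- The identity in terms of a symplectic basis. -/
theorem Alt.exists_id (hg : Alt g) : ∃ (m : ℕ) (y y' : Fin m → W),
    ∑ i, (E1 g (y' i) (y i) - E1 g (y i) (y' i)) = 1 := by
  obtain ⟨m, k, b, h1, h2, h3, h4⟩ := Cfsg.Agent.S0752.result g hg.alt
  have h5 : ∀ i j, g (b (Sum.inl (Sum.inr i))) (b (Sum.inl (Sum.inl j))) =
      - if i = j then 1 else 0 := by
    intro i j
    rw [hg.neg, h1]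
    simp only [eq_comm]
  refine ⟨m, fun i => b (Sum.inl (Sum.inl i)), fun i => b (Sum.inl (Sum.inr i)), ?_⟩
  apply b.ext
  rintro ((j | j) | j)
  · rw [LinearMap.sum_apply, Module.End.one_apply]
    simp only [LinearMap.sub_apply, E1_apply, h2, h5, zero_smul, zero_sub, neg_smul, neg_neg,
      ite_smul, one_smul, Finset.sum_ite_eq', Finset.mem_univ, if_true]
  · rw [LinearMap.sum_apply, Module.End.one_apply]
    simp only [LinearMap.sub_apply, E1_apply, h1, h3, zero_smul, sub_zero,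
      ite_smul, one_smul, Finset.sum_ite_eq', Finset.mem_univ, if_true]
  · exfalso
    exact b.ne_zero (Sum.inr j) (hg.nd _ (h4 j))

theorem Sp2.In_E_rt (h : Sp2 f g Q) {x x' : U} {y y' : W} (hp : f x x' * g y y' = 0) (c : F) :
    In (E Q) (c • rt Q (x ⊗ₜ[F] y) (x' ⊗ₜ y')) := by
  refine ⟨T Q (x ⊗ₜ y) (c • (x' ⊗ₜ y')), T_mem_E _ _, fun v => ?_⟩
  rw [T_apply_root (h.Qp _ _) (by rw [QuadraticMap.map_smul, h.Qp, smul_zero])
    (by rw [polar_smul_right, h.pol, hp, smul_zero]), LinearMap.smul_apply, rt_apply,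
    polar_smul_left]
  module

/-- Transvections `τ ⊗ 1` are in `E Q`. -/
theorem Sp2.In_E_U (h : Sp2 f g Q) (u : U) (c : F) :
    In (E Q) (c • TensorProduct.map (E1 f u u) 1) := by
  obtain ⟨m, y, y', hy⟩ := h.hg.exists_id
  rw [← hy]
  have key : ∀ s : Finset (Fin m), In (E Q) (c • TensorProduct.map (E1 f u u)
      (∑ i ∈ s, (E1 g (y' i) (y i) - E1 g (y i) (y' i)))) := by
    intro s
    induction s using Finset.induction_on with
    | empty =>
      rw [Finset.sum_empty, TensorProduct.map_zero_right, smul_zero]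
      exact In.zero
    | insert a s ha ih =>
      rw [Finset.sum_insert ha, TensorProduct.map_add_right, smul_add]
      have h1 := h.In_E_rt (x := u) (x' := u) (y := y a) (y' := y' a)
        (by rw [h.hf.alt, zero_mul]) c
      rw [h.rt_eq, ← map_subR] at h1
      refine h1.add ih ?_
      rw [smul_mul_smul_comm, map_mul', E1_mul, h.hf.alt, zero_smul,
        TensorProduct.map_zero_left, smul_zero]
  exact key Finset.univ

theorem Sp2.In_E_W (h : Sp2 f g Q) (w : W) (c : F) :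
    In (E Q) (c • TensorProduct.map 1 (E1 g w w)) := by
  obtain ⟨m, y, y', hy⟩ := h.hf.exists_id
  rw [← hy]
  have key : ∀ s : Finset (Fin m), In (E Q) (c • TensorProduct.map
      (∑ i ∈ s, (E1 f (y' i) (y i) - E1 f (y i) (y' i))) (E1 g w w)) := by
    intro s
    induction s using Finset.induction_on with
    | empty =>
      rw [Finset.sum_empty, TensorProduct.map_zero_left, smul_zero]
      exact In.zero
    | insert a s ha ih =>
      rw [Finset.sum_insert ha, TensorProduct.map_add_left, smul_add]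
      have h1 := h.In_E_rt (x := y a) (x' := y' a) (y := w) (y' := w)
        (by rw [h.hg.alt, mul_zero]) c
      rw [h.rt_eq, ← map_subL] at h1
      refine h1.add ih ?_
      rw [smul_mul_smul_comm, map_mul', E1_mul (f := g), h.hg.alt, zero_smul,
        TensorProduct.map_zero_right, smul_zero]
  exact key Finset.univ

/-- Some element of `E Q` is not in `Sten`. -/
theorem Sp2.exists_not_mem (h : Sp2 f g Q) (hU0 : ∃ u : U, u ≠ 0)
    (hW : 3 ≤ Module.finrank F W) : ∃ s ∈ E Q, s ∉ Sten F U W := by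
  obtain ⟨u, hu⟩ := hU0
  obtain ⟨w, hw⟩ : ∃ w : W, w ≠ 0 := by
    by_contra hcon
    push Not at hcon
    have : Subsingleton W := ⟨fun a b => by rw [hcon a, hcon b]⟩
    have := Module.finrank_zero_of_subsingleton (R := F) (M := W)
    omega
  obtain ⟨w', hw'w, hw'⟩ := h.hg.exists_perp1 hW hw
  have hww' := h.hg.comm_zero hw'w
  obtain ⟨s, hs, hs'⟩ := h.In_E_rt (x := u) (x' := u) (y := w) (y' := w')
    (by rw [h.hf.alt, zero_mul]) 1
  refine ⟨s, hs, ?_⟩
  rintro ⟨A, B, hAB⟩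
  have hsv : ∀ z t, s (z ⊗ₜ t) = z ⊗ₜ t + (f u z * g w t) • (u ⊗ₜ w') -
      (f u z * g w' t) • (u ⊗ₜ w) := by
    intro z t
    rw [hs', one_smul, rt_apply, h.pol, h.pol]
    abel
  obtain ⟨z, hz⟩ := h.hf.exists_ne hu
  -- `A u ⊗ B t = u ⊗ t`
  have h1 : ∀ t, A u ⊗ₜ[F] B t = u ⊗ₜ t := by
    intro t
    rw [← hAB, hsv, h.hf.alt, zero_mul, zero_mul, zero_smul, zero_smul, add_zero, sub_zero]
  have hAu : A u ≠ 0 := fun e => hu ((LinearEquiv.map_eq_zero_iff A).1 e)
  obtain ⟨φ, hφ⟩ := h.hf.exists_ne' hAu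
  have hB : ∀ t, B t = f φ u • t := by
    intro t
    have := congrArg (kU f W φ) (h1 t)
    rwa [kU_tmul, kU_tmul, hφ, one_smul] at this
  have h2 : A z ⊗ₜ[F] B w' = z ⊗ₜ w' := by
    rw [← hAB, hsv, hww', h.hg.alt, mul_zero, zero_smul, zero_smul, add_zero, sub_zero]
  have hw'0 : w' ≠ 0 := ne_of_not_mem hw'
  have h3 : f φ u • A z = z := by
    rw [hB, TensorProduct.tmul_smul, TensorProduct.smul_tmul'] at h2
    exact h.hg.tmul_left_inj hw'0 h2
  obtain ⟨t, ht, ht'⟩ := h.hg.sep1 (not_mem_symm hw' hw)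
  have h4 := hAB z t
  rw [hB, TensorProduct.tmul_smul, TensorProduct.smul_tmul', h3, hsv, hz, one_mul, one_mul,
    h.hg.neg w t, ht, h.hg.comm_zero ht', zero_smul, sub_zero, neg_one_smul] at h4
  have h5 : u ⊗ₜ[F] w' = 0 := by
    have h6 : z ⊗ₜ[F] t + -(u ⊗ₜ w') = z ⊗ₜ t + 0 := by rw [h4, add_zero]
    exact neg_eq_zero.1 (add_left_cancel h6)
  exact h.hf.tmul_ne_zero hu hw'0 h5

/-! ### The frozen form -/

section Frozen

open Cfsg.Agent.H883.Tensor

variable {ι : Type} [Fintype ι] [DecidableEq ι] {F : Type*} [Field F] {n₁ n₂ : ℕ}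

/-- The bilinear form of a function. -/
def bil {n : ℕ} {f : (Fin n → F) → (Fin n → F) → F} (hf : Cfsg.Geo.IsBilinearForm f) (c : F) :
    LinearMap.BilinForm F (Fin n → F) :=
  LinearMap.mk₂ F (fun x y => c * f x y)
    (fun x x' y => by rw [hf.add_left, mul_add])
    (fun a x y => by rw [hf.smul_left, smul_eq_mul]; ring)
    (fun x y y' => by rw [hf.add_right, mul_add])
    (fun a x y => by rw [hf.smul_right, smul_eq_mul]; ring)

theorem bil_apply {n : ℕ} {f : (Fin n → F) → (Fin n → F) → F} (hf : Cfsg.Geo.IsBilinearForm f)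
    (c : F) (x y : Fin n → F) : bil hf c x y = c * f x y := rfl

theorem alt_bil {n : ℕ} {f : (Fin n → F) → (Fin n → F) → F} (hf : Cfsg.Geo.IsSymplecticForm f)
    {c : F} (hc : c ≠ 0) : Alt (bil hf.bilinear c) where
  alt := fun x => by rw [bil_apply, hf.alternating, mul_zero]
  nd := fun x hx => by
    by_contra h
    obtain ⟨y, hy⟩ := (hf.nondegenerate x h).2
    have h1 := hx y
    rw [bil_apply] at h1
    exact hy ((mul_eq_zero.1 h1).resolve_left hc)

theorem two_le_of_symp {n : ℕ} {f : (Fin n → F) → (Fin n → F) → F}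
    (hf : Cfsg.Geo.IsSymplecticForm f) (hn : n ≠ 0) : 2 ≤ n := by
  by_contra hcon
  have h1 : n = 1 := by omega
  subst h1
  have h2 : (1 : Fin 1 → F) ≠ 0 := by
    intro e
    exact one_ne_zero (congrFun e 0)
  obtain ⟨y, hy⟩ := (hf.nondegenerate 1 h2).2
  apply hy
  have h3 : y = y 0 • (1 : Fin 1 → F) := by
    ext i
    rw [Subsingleton.elim i 0]
    simp
  rw [h3, hf.bilinear.smul_right, hf.alternating, mul_zero]

/-- The equivalence `F^n₁ ⊗ F^n₂ ≃ F^ι`. -/
theorem exists_equiv (e : ι ≃ Fin n₁ × Fin n₂) (P : Matrix.GeneralLinearGroup ι F) :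
    ∃ φ : ((Fin n₁ → F) ⊗[F] (Fin n₂ → F)) ≃ₗ[F] (ι → F), ∀ x y, φ (x ⊗ₜ y) = pure e P x y := by
  let φ : ((Fin n₁ → F) ⊗[F] (Fin n₂ → F)) →ₗ[F] (ι → F) := TensorProduct.lift (pureBilin e P)
  have hφ : ∀ x y, φ (x ⊗ₜ y) = pure e P x y := fun x y => by
    rw [TensorProduct.lift.tmul, pureBilin_apply]
  have hsurj : Function.Surjective φ := by
    intro v
    refine ⟨∑ i, (Pi.single i (1 : F)) ⊗ₜ (fun j => (vec e P).symm v (i, j)), ?_⟩
    rw [map_sum]
    conv_rhs => rw [eq_sum_pure e P v]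
    exact Finset.sum_congr rfl fun i _ => hφ _ _
  have hdim : Module.finrank F ((Fin n₁ → F) ⊗[F] (Fin n₂ → F)) = Module.finrank F (ι → F) := by
    rw [Module.finrank_tensorProduct, Module.finrank_fintype_fun_eq_card,
      Module.finrank_fintype_fun_eq_card, Module.finrank_fintype_fun_eq_card,
      Fintype.card_congr e, Fintype.card_prod]
  have hinj : Function.Injective φ :=
    (LinearMap.injective_iff_surjective_of_finrank_eq_finrank hdim).2 hsurj
  exact ⟨LinearEquiv.ofBijective φ ⟨hinj, hsurj⟩, hφ⟩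

/-- **Symplectic ⊗ symplectic tensor decompositions with `n₁ < n₂` are maximal.** -/
theorem tensor_maximal [Fintype F] (Q : (ι → F) → F)
    (hQ : Cfsg.Geo.IsNondegenerateQuadraticForm Q) (h12 : n₁ < n₂) (h5 : 5 ≤ n₂)
    (hn₁ : n₁ ≠ 0) (hex : ¬ (Fintype.card F = 2 ∧ n₁ = 2)) (e : ι ≃ Fin n₁ × Fin n₂)
    (P : Matrix.GeneralLinearGroup ι F)
    (f₁ : (Fin n₁ → F) → (Fin n₁ → F) → F) (f₂ : (Fin n₂ → F) → (Fin n₂ → F) → F)
    (hf₁ : Cfsg.Geo.IsSymplecticForm f₁) (hf₂ : Cfsg.Geo.IsSymplecticForm f₂)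
    (hT : Cfsg.Geo.IsTensorFormStructure id (QuadraticMap.polar Q) f₁ f₂ e P)
    (hpure : ∀ (x₁ : Fin n₁ → F) (x₂ : Fin n₂ → F), Q (pure e P x₁ x₂) = 0) :
    Cfsg.Geo.IsMaximalIn (Cfsg.Geo.omegaGL Q)
      (Cfsg.Geo.tensorProductSubgroup n₁ n₂ e P ⊓ Cfsg.Geo.omegaGL Q) := by
  classical
  obtain ⟨c, hc, hpol⟩ := form_pure hf₁.bilinear hf₂.bilinear hT
  obtain ⟨φ, hφ⟩ := exists_equiv e P
  have h2 : 2 ≤ n₁ := two_le_of_symp hf₁ hn₁
  have hcard : Fintype.card ι = n₁ * n₂ := by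
    rw [Fintype.card_congr e, Fintype.card_prod, Fintype.card_fin, Fintype.card_fin]
  have hι : 7 ≤ Fintype.card ι := by
    rw [hcard]
    nlinarith
  have hG : Good (qf Q hQ) := (big_qf Q hQ hι).good
  let f : LinearMap.BilinForm F (Fin n₁ → F) := bil hf₁.bilinear c
  let g : LinearMap.BilinForm F (Fin n₂ → F) := bil hf₂.bilinear 1
  let Q' : QuadraticForm F ((Fin n₁ → F) ⊗[F] (Fin n₂ → F)) := (qf Q hQ).comp φ.toLinearMap
  have hQ' : ∀ v, Q' v = qf Q hQ (φ v) := fun v => rfl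
  have hQpol : ∀ a b, polar Q' a b = polar Q (φ a) (φ b) := by
    intro a b
    rw [polar, polar, hQ', hQ', hQ', map_add φ]
    rfl
  have hsp : Sp2 f g Q' :=
    { hf := alt_bil hf₁ hc
      hg := alt_bil hf₂ one_ne_zero
      Qp := fun x y => by
        rw [hQ', hφ]
        exact hpure x y
      pol := fun x x' y y' => by
        rw [hQpol, hφ, hφ, hpol, bil_apply, bil_apply]
        ring }
  have hfU : Module.finrank F (Fin n₁ → F) = n₁ := by simp
  have hfW : Module.finrank F (Fin n₂ → F) = n₂ := by simp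
  have hbig : Big Q' :=
    { nondeg := hsp.nondeg
      dim := by
        rw [Module.finrank_tensorProduct, hfU, hfW, ← hcard]
        exact hι }
  have hU0 : ∃ u : Fin n₁ → F, u ≠ 0 := by
    refine ⟨fun _ => 1, fun e => ?_⟩
    exact one_ne_zero (congrFun e (⟨0, by omega⟩ : Fin n₁))
  have hq : 3 ≤ Module.finrank F (Fin n₁ → F) ∨ ∃ c : F, c ≠ 0 ∧ c ≠ 1 := by
    rw [hfU]
    by_cases h3 : 3 ≤ n₁
    · exact Or.inl h3
    right
    by_contra hcon
    push Not at hcon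
    apply hex
    refine ⟨?_, by omega⟩
    have h4 : (Finset.univ : Finset F) = {0, 1} := by
      ext x
      simp only [Finset.mem_univ, Finset.mem_insert, Finset.mem_singleton, true_iff]
      by_cases hx : x = 0
      · exact Or.inl hx
      · exact Or.inr (hcon x hx)
    rw [← Finset.card_univ, h4, Finset.card_pair zero_ne_one]
  -- the set of automorphisms
  let S' : Set ((ι → F) ≃ₗ[F] (ι → F)) := {s | (conjE φ).symm s ∈ Sten F _ _}
  have hS' : ∀ s, s ∈ S' ↔ ∃ (a : (Fin n₁ → F) ≃ₗ[F] (Fin n₁ → F))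
      (b : (Fin n₂ → F) ≃ₗ[F] (Fin n₂ → F)), ∀ x y, s (pure e P x y) = pure e P (a x) (b y) := by
    intro s
    constructor
    · rintro ⟨a, b, hab⟩
      refine ⟨a, b, fun x y => ?_⟩
      have h1 := hab x y
      rw [conjE_symm_apply, hφ, LinearEquiv.symm_apply_eq, hφ] at h1
      exact h1
    · rintro ⟨a, b, hab⟩
      refine ⟨a, b, fun x y => ?_⟩
      rw [conjE_symm_apply, hφ, LinearEquiv.symm_apply_eq, hφ]
      exact hab x y
  refine isMaximalIn_omegaGL Q hQ hG _ S' ?_ ?_ ?_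
  · intro s
    rw [mem_tensorProductSubgroup_iff, hS']
    constructor
    · rintro ⟨a, b, hab⟩
      exact ⟨le _ F a, le _ F b, fun x y => hab x y⟩
    · rintro ⟨a, b, hab⟩
      refine ⟨(le _ F).symm a, (le _ F).symm b, fun x y => ?_⟩
      rw [le_symm_mulVec, le_symm_mulVec]
      exact hab x y
  · obtain ⟨s, hs, hs'⟩ := hsp.exists_not_mem hU0 (by rw [hfW]; omega)
    refine ⟨conjE φ s, conjE_mem_E φ _ Q' hQ' hs, ?_⟩
    intro h1
    apply hs'
    have h3 : (conjE φ).symm (conjE φ s) ∈ Sten F _ _ := h1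
    rwa [MulEquiv.symm_apply_apply] at h3
  · intro H hHE hH1 hH2
    obtain ⟨p, hp⟩ := CharP.exists F
    have hpp : Fact p.Prime := ⟨(CharP.char_is_prime_or_zero F p).resolve_right (by
      intro h0
      subst h0
      have := CharP.charP_to_charZero F
      exact not_finite F)⟩
    have hfin : Finite ((Fin n₁ → F) ⊗[F] (Fin n₂ → F)) :=
      Finite.of_injective φ φ.injective
    have hfin' : Finite (((Fin n₁ → F) ⊗[F] (Fin n₂ → F)) ≃ₗ[F]
        ((Fin n₁ → F) ⊗[F] (Fin n₂ → F))) :=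
      Finite.of_injective (fun s => (s : _ → _)) DFunLike.coe_injective
    let M : Subgroup (((Fin n₁ → F) ⊗[F] (Fin n₂ → F)) ≃ₗ[F]
        ((Fin n₁ → F) ⊗[F] (Fin n₂ → F))) := H.comap (conjE φ).toMonoidHom
    have hMmem : ∀ s, s ∈ M ↔ conjE φ s ∈ H := fun s => Iff.rfl
    have hME : M ≤ E Q' := by
      intro s hs
      rw [← conjE_mem_E_iff φ (qf Q hQ) Q' hQ']
      exact hHE hs
    -- elements of `E Q'` in `Sten` are in `M`
    have hin : ∀ s ∈ E Q', s ∈ Sten F _ _ → s ∈ M := by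
      intro s hs hs'
      refine hH1 _ (conjE_mem_E φ _ Q' hQ' hs) ?_
      show (conjE φ).symm (conjE φ s) ∈ Sten F _ _
      rwa [MulEquiv.symm_apply_apply]
    have hy : Hy f g Q' M :=
      { toSp2 := hsp
        hO := hME.trans E_le_O
        hU := by
          intro u c'
          obtain ⟨s, hs, hs'⟩ := hsp.In_E_U u c'
          refine ⟨s, hin s hs ?_, hs'⟩
          have e1 : s = actU _ (tv hsp.hf u c') := by
            apply ext_pure
            intro x y
            rw [actU_tv, kU_tmul, hs', LinearMap.smul_apply, map_E1_left, kU_tmul]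
            rfl
          rw [e1]
          exact ⟨tv hsp.hf u c', 1, fun x y => actU_tmul _ x y⟩
        hW := by
          intro w c'
          obtain ⟨s, hs, hs'⟩ := hsp.In_E_W w c'
          refine ⟨s, hin s hs ?_, hs'⟩
          have e1 : s = actW _ (tv hsp.hg w c') := by
            apply ext_pure
            intro x y
            rw [actW_tv, kW_tmul, hs', LinearMap.smul_apply, map_E1_right, kW_tmul]
            rfl
          rw [e1]
          exact actW_mem_Sten _ }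
    have hmain := hy.main (p := p) (by rw [hfU]; exact h2) (by rw [hfU, hfW]; exact h12)
      (by rw [hfW]; exact h5) hq hbig
    rcases hmain with h3 | h3
    · intro s hs
      have h4 : (conjE φ).symm s ∈ E Q' := by
        rw [← conjE_mem_E_iff φ (qf Q hQ) Q' hQ', MulEquiv.apply_symm_apply]
        exact hs
      have h5 := h3 h4
      rw [hMmem, MulEquiv.apply_symm_apply] at h5
      exact h5
    · exfalso
      obtain ⟨s, hs, hs'⟩ := hH2
      apply hs'
      apply h3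
      rw [hMmem, MulEquiv.apply_symm_apply]
      exact hs

end Frozen

end Cfsg.Agent.H887.TenSp
end
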